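import Mathlib.GroupTheory.SpecificGroups.Cyclic
import Mathlib.GroupTheory.GroupAction.Quotient
import Cfsg.Agent.H24.SmallRank
import Cfsg.Agent.H86.SolutionCount
import Cfsg.Agent.H86.Basic

/-!
Elements of order `p ^ s`, `s > 1`, in groups with non-cyclic Sylow `p`-subgroup (`p` odd):
their number is a multiple of `p ^ s` (Miller, Kulakoff).
-/

namespace Cfsg.Agent.H86

open Subgroup
open scoped commutatorElement

/-- Powers of a product when the commutator is central. -/
theorem mul_pow_of_central {P : Type*} [Group P] {u e d : P} (hd : ∀ x : P, Commute d x)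
    (h : e * u = u * e * d) (n : ℕ) : (u * e) ^ n = u ^ n * e ^ n * d ^ n.choose 2 := by
  have h' : ∀ n : ℕ, e ^ n * u = u * e ^ n * d ^ n := by
    intro n
    induction n with
    | zero => simp
    | succ n ih =>
      calc e ^ (n + 1) * u = e ^ n * (e * u) := by rw [pow_succ, mul_assoc]
        _ = (e ^ n * u) * (e * d) := by rw [h, mul_assoc u e d, ← mul_assoc]
        _ = u * e ^ n * (d ^ n * e) * d := by rw [ih]; simp [mul_assoc]
        _ = u * e ^ n * (e * d ^ n) * d := by rw [((hd e).pow_left n).eq]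
        _ = _ := by simp [pow_succ, mul_assoc]
  induction n with
  | zero => simp
  | succ n ih =>
    have e1 : (n + 1).choose 2 = n + n.choose 2 := by rw [Nat.choose_succ_succ', Nat.choose_one_right]
    calc (u * e) ^ (n + 1) = (u ^ n * e ^ n * d ^ n.choose 2) * (u * e) := by rw [pow_succ, ih]
      _ = u ^ n * e ^ n * ((u * e) * d ^ n.choose 2) := by rw [mul_assoc, ((hd (u * e)).pow_left _).eq]
      _ = u ^ n * (e ^ n * u) * e * d ^ n.choose 2 := by simp [mul_assoc]
      _ = u ^ n * (u * e ^ n * d ^ n) * e * d ^ n.choose 2 := by rw [h']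
      _ = u ^ n * u * e ^ n * (d ^ n * e) * d ^ n.choose 2 := by simp [mul_assoc]
      _ = u ^ n * u * e ^ n * (e * d ^ n) * d ^ n.choose 2 := by rw [((hd e).pow_left n).eq]
      _ = _ := by rw [e1, pow_add]; simp [pow_succ, mul_assoc, ← pow_add]

/-- Miller: elements of order `p ^ s` in a non-cyclic `p`-group, `p` odd, `s ≥ 2`. -/
theorem dvd_card_orderOf_of_pGroup {P : Type*} [Group P] [Finite P] {p : ℕ} [hp : Fact p.Prime]
    (hp2 : p ≠ 2) (hP : IsPGroup p P) (hnc : ¬ IsCyclic P) {s : ℕ} (hs : 1 < s) :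
    p ^ s ∣ Nat.card {y : P // orderOf y = p ^ s} := by
  obtain ⟨E, hEn, hEc, hEp, hEcard⟩ := H24.exists_normal_elementary_two P p hp2 hP hnc
  have hE1 : E ≠ ⊥ := fun e => by
    rw [e, card_bot] at hEcard
    exact (Nat.one_lt_pow two_ne_zero hp.out.one_lt).ne hEcard
  -- commutators with `E` are central
  set D : Subgroup P := ⁅E, (⊤ : Subgroup P)⁆ with hDdef
  have hDle : D ≤ E := commutator_le_left E ⊤
  have hDc : ∀ d ∈ D, ∀ x : P, Commute d x := by
    intro d hd x
    by_cases hD1 : D = ⊥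
    · have hd1 : d ∈ (⊥ : Subgroup P) := hD1 ▸ hd
      rw [mem_bot.1 hd1]; exact Commute.one_left x
    have h1 := H24.commutator_top_lt (N := E) hP hE1
    have h2 := H24.commutator_top_lt (N := D) hP hD1
    rw [← hDdef, hEcard, pow_two] at h1
    have h3 := Nat.le_of_mul_le_mul_left h1 hp.out.pos
    have h4 : p * Nat.card (⁅D, (⊤ : Subgroup P)⁆ : Subgroup P) ≤ p * 1 := by rw [mul_one]; exact h2.trans h3
    have hbot := eq_bot_of_card_le _ (Nat.le_of_mul_le_mul_left h4 hp.out.pos)
    have hmem : ⁅d, x⁆ ∈ (⊥ : Subgroup P) := hbot ▸ commutator_mem_commutator hd (mem_top x)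
    exact commutatorElement_eq_one_iff_mul_comm.1 (mem_bot.1 hmem)
  have hpow : ∀ (u : P), ∀ e ∈ E, (u * e) ^ p = u ^ p := by
    intro u e he
    have hd : ⁅e⁻¹, u⁻¹⁆ ∈ D := commutator_mem_commutator (inv_mem he) (mem_top _)
    rw [mul_pow_of_central (d := ⁅e⁻¹, u⁻¹⁆) (hDc _ hd) (by rw [commutatorElement_def]; group) p,
      hEp e he, mul_one]
    obtain ⟨k, hk⟩ := Nat.Prime.dvd_choose_self hp.out two_ne_zero
      (lt_of_le_of_ne hp.out.two_le (Ne.symm hp2))
    rw [hk, pow_mul, hEp _ (hDle hd), one_pow, mul_one]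
  refine dvd_card_of_fibers (fun y : {y : P // orderOf y = p ^ s} => zpowers (y : P) ⊔ E) _ fun H => ?_
  rcases isEmpty_or_nonempty {y : {y : P // orderOf y = p ^ s} // zpowers (y : P) ⊔ E = H} with he | ⟨⟨⟨y, hy⟩, hH⟩⟩
  · rw [Nat.card_of_isEmpty]; exact dvd_zero _
  dsimp only at hH
  subst hH
  set H := zpowers y ⊔ E with hH
  set K := zpowers (y ^ p) ⊔ E with hK
  have hKH : K ≤ H := sup_le_sup_right (zpowers_le.2 (pow_mem (mem_zpowers y) p)) _
  have hps : p ^ (s - 1) * p = p ^ s := by rw [← pow_succ, Nat.sub_add_cancel (by omega)]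
  have hdec : ∀ h ∈ H, ∃ k : ℤ, ∃ e ∈ E, h = y ^ k * e := by
    intro h hh
    obtain ⟨a, ha, e, he, rfl⟩ := mem_sup_of_normal_right.1 hh
    obtain ⟨k, rfl⟩ := mem_zpowers_iff.1 ha
    exact ⟨k, e, he, rfl⟩
  have hordK : ∀ h ∈ H, (h ∈ K ↔ orderOf h ≠ p ^ s) := by
    intro h hh
    obtain ⟨k, e, he, rfl⟩ := hdec h hh
    have hp1 : (y ^ k * e) ^ (p ^ (s - 1)) = (y ^ k) ^ (p ^ (s - 1)) := by
      rw [← Nat.sub_add_cancel (show 1 ≤ s - 1 by omega), pow_succ', pow_mul, pow_mul, hpow _ e he]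
    constructor
    · intro hmem heq
      have hmem' : y ^ k ∈ K := by simpa using mul_mem hmem (mem_sup_right (S := zpowers (y ^ p)) (inv_mem he))
      obtain ⟨a, ha, e', he', hae⟩ := mem_sup_of_normal_right.1 hmem'
      obtain ⟨j, rfl⟩ := mem_zpowers_iff.1 ha
      have h1 : (y ^ k) ^ (p ^ (s - 1)) = 1 := by
        rw [← hae, ← Nat.sub_add_cancel (show 1 ≤ s - 1 by omega), pow_succ', pow_mul, hpow _ e' he',
          ← pow_mul, ← pow_succ', Nat.sub_add_cancel (show 1 ≤ s - 1 by omega)]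
        have h0 : (y ^ p) ^ (p ^ (s - 1)) = 1 := by
          rw [← pow_mul, mul_comm, hps, ← hy, pow_orderOf_eq_one]
        rw [← zpow_natCast, ← zpow_mul, mul_comm, zpow_mul, zpow_natCast, h0, one_zpow]
      have h2 : orderOf (y ^ k * e) ∣ p ^ (s - 1) := orderOf_dvd_of_pow_eq_one (hp1.trans h1)
      rw [heq] at h2
      have := (Nat.pow_dvd_pow_iff_le_right hp.out.one_lt).1 h2
      omega
    · intro hne
      by_contra hmem
      apply hne
      have hk : ¬ (p : ℤ) ∣ k := by
        rintro ⟨j, rfl⟩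
        exact hmem (mul_mem_sup (by rw [zpow_mul, zpow_natCast]; exact zpow_mem (mem_zpowers _) j) he)
      refine orderOf_eq_prime_pow (n := s - 1) ?_ ?_ |>.trans (by rw [Nat.sub_add_cancel (by omega : 1 ≤ s)])
      · rw [hp1, ← zpow_natCast (y ^ k), ← zpow_mul, ← orderOf_dvd_iff_zpow_eq_one, hy]
        intro hd
        push_cast at hd
        have hd' : (p : ℤ) ^ (s - 1) * (p : ℤ) ∣ (p : ℤ) ^ (s - 1) * k := by
          rw [← pow_succ, Nat.sub_add_cancel (by omega : 1 ≤ s)]; rwa [mul_comm] at hd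
        exact hk (Int.dvd_of_mul_dvd_mul_left (by positivity [hp.out.pos]) hd')
      · rw [pow_succ, pow_mul, hp1, ← pow_mul, hps, ← zpow_natCast, ← zpow_mul, mul_comm, zpow_mul,
          zpow_natCast, ← hy, pow_orderOf_eq_one, one_zpow]
  have e1 : Nat.card {z : {y : P // orderOf y = p ^ s} // zpowers (z : P) ⊔ E = H} =
      Nat.card ((H : Set P) \ (K : Set P) : Set P) := by
    refine Nat.card_congr
      { toFun := fun z => ⟨(z.1 : P), ?_, ?_⟩
        invFun := fun h => ⟨⟨(h : P), ?_⟩, ?_⟩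
        left_inv := fun z => rfl
        right_inv := fun h => rfl }
    · exact z.2.le (mem_sup_left (mem_zpowers _))
    · intro hk
      have hzH : (z.1 : P) ∈ H := z.2.le (mem_sup_left (mem_zpowers _))
      exact (hordK _ hzH).1 hk z.1.2
    · by_contra hne
      exact h.2.2 ((hordK _ h.2.1).2 hne)
    · show zpowers (h : P) ⊔ E = H
      refine le_antisymm (sup_le (zpowers_le.2 h.2.1) le_sup_right) (sup_le (zpowers_le.2 ?_) le_sup_right)
      obtain ⟨k, e, he, hke⟩ := hdec _ h.2.1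
      have hk : ¬ (p : ℤ) ∣ k := by
        rintro ⟨j, rfl⟩
        refine h.2.2 ?_
        rw [hke]
        exact mul_mem_sup (by rw [zpow_mul, zpow_natCast]; exact zpow_mem (mem_zpowers _) j) he
      have hcop : IsCoprime k ((p : ℤ) ^ s) :=
        ((Nat.prime_iff_prime_int.1 hp.out).coprime_iff_not_dvd.2 hk).symm.pow_right
      obtain ⟨a, b, hab⟩ := hcop
      have hyk : y ^ k ∈ zpowers (h : P) ⊔ E := by
        have : y ^ k = (h : P) * e⁻¹ := by rw [hke, mul_inv_cancel_right]
        rw [this]; exact mul_mem_sup (mem_zpowers _) (inv_mem he)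
      have hps' : y ^ ((p : ℤ) ^ s) = 1 := by
        rw [← Nat.cast_pow, zpow_natCast, ← hy, pow_orderOf_eq_one]
      have : y = (y ^ k) ^ a := by
        calc y = y ^ (a * k + b * (p : ℤ) ^ s) := by rw [hab, zpow_one]
          _ = _ := by rw [zpow_add, zpow_mul', zpow_mul', hps', one_zpow, mul_one]
      rw [this]; exact zpow_mem hyk a
  rw [e1, Nat.card_coe_set_eq, Set.ncard_sdiff (by exact hKH), ← Nat.card_coe_set_eq, ← Nat.card_coe_set_eq]
  change p ^ s ∣ Nat.card H - Nat.card K
  have hKne : K ≠ H := fun e => by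
    have hyK : y ∈ K := e ▸ mem_sup_left (mem_zpowers y)
    exact (hordK y (mem_sup_left (mem_zpowers y))).1 hyK hy
  obtain ⟨a, ha⟩ := (hP.to_subgroup H).exists_card_eq
  obtain ⟨b, hb⟩ := (hP.to_subgroup K).exists_card_eq
  have hba : p ^ b < p ^ a := by
    rw [← ha, ← hb]
    exact lt_of_le_of_ne (card_le_of_le hKH) fun e => hKne (eq_of_le_of_card_ge hKH e.ge)
  have hba' := (Nat.pow_lt_pow_iff_right hp.out.one_lt).1 hba
  -- `K` is big enough
  have hsH : s < a := by
    rw [← Nat.pow_lt_pow_iff_right hp.out.one_lt, ← ha, ← hy, ← Nat.card_zpowers]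
    refine lt_of_le_of_ne (card_le_of_le le_sup_left) fun e => ?_
    have hEC : E ≤ zpowers y := by
      have h' := eq_of_le_of_card_ge (le_sup_left : zpowers y ≤ H) e.ge
      exact h' ▸ le_sup_right
    have : IsCyclic E := isCyclic_of_le hEC
    have h' : Monoid.exponent E ∣ p := Monoid.exponent_dvd_of_forall_pow_eq_one fun e => Subtype.ext (hEp e e.2)
    rw [IsCyclic.exponent_eq_card, hEcard] at h'
    have := (Nat.pow_dvd_pow_iff_le_right hp.out.one_lt).1 (show p ^ 2 ∣ p ^ 1 by rwa [pow_one])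
    omega
  have hsb : s ≤ b := by
    -- the index of `K` in `H` is at most `p`
    by_contra hlt
    have hle : Nat.card H ≤ Nat.card K * p := by
      let f : K × Fin p → H := fun q => ⟨y ^ (q.2 : ℕ) * q.1, mul_mem (mem_sup_left (pow_mem (mem_zpowers y) _)) (hKH q.1.2)⟩
      refine (Nat.card_le_card_of_surjective f ?_).trans (le_of_eq (by rw [Nat.card_prod, Nat.card_fin]))
      rintro ⟨h, hh⟩
      obtain ⟨k, e, he, rfl⟩ := hdec h hh
      have hpz : (0 : ℤ) < p := by exact_mod_cast hp.out.pos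
      refine ⟨(⟨(y ^ p) ^ (k / p) * e, mul_mem_sup (zpow_mem (mem_zpowers _) _) he⟩,
        ⟨(k % p).toNat, by have := Int.emod_lt_of_pos k hpz; have := Int.emod_nonneg k hpz.ne'; omega⟩), Subtype.ext ?_⟩
      show y ^ (k % p).toNat * ((y ^ p) ^ (k / p) * e) = y ^ k * e
      rw [← mul_assoc, ← zpow_natCast, ← zpow_natCast, Int.toNat_of_nonneg (Int.emod_nonneg k hpz.ne'),
        ← zpow_mul, ← zpow_add, show k % (p : ℤ) + (p : ℤ) * (k / p) = k by rw [Int.emod_def]; ring]
    rw [ha, hb, ← pow_succ] at hle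
    have := (Nat.pow_le_pow_iff_right hp.out.one_lt).1 hle
    omega
  rw [ha, hb]
  exact Nat.dvd_sub (pow_dvd_pow p (by omega)) (pow_dvd_pow p hsb)

open scoped Pointwise in
/-- Miller: elements of order `p ^ s` in a group with non-cyclic Sylow subgroup. -/
theorem dvd_card_orderOf_of_sylow {G : Type*} [Group G] [Finite G] {p : ℕ} [hp : Fact p.Prime]
    (hp2 : p ≠ 2) (P : Sylow p G) (hnc : ¬ IsCyclic P) {s : ℕ} (hs : 1 < s) :
    p ^ s ∣ Nat.card {y : G // orderOf y = p ^ s} := by
  classical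
  have hfib : ∀ (Q : G → Prop), (∀ y z : G, zpowers y = zpowers z → Q y → Q z) →
      Nat.card {y : G // orderOf y = p ^ s ∧ Q y} =
        Nat.card {C : Subgroup G // ∃ y : G, orderOf y = p ^ s ∧ Q y ∧ zpowers y = C} * (p ^ s).totient := by
    intro Q hQ
    let f : {y : G // orderOf y = p ^ s ∧ Q y} →
        {C : Subgroup G // ∃ y : G, orderOf y = p ^ s ∧ Q y ∧ zpowers y = C} :=
      fun y => ⟨zpowers (y : G), y, y.2.1, y.2.2, rfl⟩
    have := Fintype.ofFinite {C : Subgroup G // ∃ y : G, orderOf y = p ^ s ∧ Q y ∧ zpowers y = C}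
    rw [← Nat.card_congr (Equiv.sigmaFiberEquiv f), Nat.card_sigma, Finset.sum_congr rfl, Finset.sum_const,
      Finset.card_univ, ← Nat.card_eq_fintype_card, smul_eq_mul]
    rintro ⟨C, y, hy, hQy, rfl⟩ -
    have := Fintype.ofFinite (zpowers y)
    rw [← IsCyclic.card_orderOf_eq_totient (α := zpowers y) (d := p ^ s)
      (by rw [← Nat.card_eq_fintype_card, Nat.card_zpowers, hy]), ← Fintype.card_subtype,
      ← Nat.card_eq_fintype_card]
    exact Nat.card_congr
      { toFun := fun w => ⟨⟨(w.1 : G), (congrArg Subtype.val w.2).le (mem_zpowers _)⟩, by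
          rw [Subgroup.orderOf_mk]; exact w.1.2.1⟩
        invFun := fun w =>
          have hw : zpowers ((w : zpowers y) : G) = zpowers y := eq_of_le_of_card_ge
            (zpowers_le.2 (w : zpowers y).2)
            (by rw [Nat.card_zpowers, Nat.card_zpowers, orderOf_coe, w.2, hy])
          ⟨⟨((w : zpowers y) : G), by rw [orderOf_coe]; exact w.2, hQ y _ hw.symm hQy⟩, Subtype.ext hw⟩
        left_inv := fun w => rfl
        right_inv := fun w => rfl }
  set T := {C : Subgroup G // ∃ y : G, orderOf y = p ^ s ∧ True ∧ zpowers y = C}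
  set T₀ := {C : Subgroup G // ∃ y : G, orderOf y = p ^ s ∧ y ∈ (P : Subgroup G) ∧ zpowers y = C}
  have h0 : p ^ s ∣ Nat.card T₀ * (p ^ s).totient := by
    rw [← hfib (fun y => y ∈ (P : Subgroup G)) (fun y z h hy => (zpowers_le.2 hy) (h ▸ mem_zpowers z))]
    refine (dvd_card_orderOf_of_pGroup hp2 P.2 hnc hs).trans (dvd_of_eq (Nat.card_congr
      { toFun := fun y => ⟨(y : P), by rw [orderOf_coe]; exact y.2, (y : P).2⟩
        invFun := fun y => ⟨⟨(y : G), y.2.2⟩, by rw [Subgroup.orderOf_mk]; exact y.2.1⟩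
        left_inv := fun y => rfl
        right_inv := fun y => rfl }))
  have hpT₀ : p ∣ Nat.card T₀ := by
    rw [Nat.totient_prime_pow hp.out (by omega), ← mul_assoc, mul_comm (Nat.card T₀), mul_assoc] at h0
    have h1 : p ^ (s - 1) * p ∣ p ^ (s - 1) * (Nat.card T₀ * (p - 1)) := by
      rw [← pow_succ, Nat.sub_add_cancel (by omega : 1 ≤ s)]; exact h0
    rcases hp.out.dvd_mul.1 (Nat.dvd_of_mul_dvd_mul_left (pow_pos hp.out.pos _) h1) with h2 | h2
    · exact h2
    · have := Nat.le_of_dvd (by have := hp.out.two_le; omega) h2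
      have := hp.out.two_le
      omega
  -- the action of `P`
  let act : MulAction (P : Subgroup G) T :=
    { smul := fun u C => ⟨MulAut.conj (u : G) • C.1, by
        obtain ⟨y, hy, -, hC⟩ := C.2
        refine ⟨MulAut.conj (u : G) y, by rw [← hy]; exact (MulAut.conj (u : G)).orderOf_eq y, trivial, ?_⟩
        rw [← hC]
        exact (MonoidHom.map_zpowers (MulAut.conj (u : G)).toMonoidHom y).symm⟩
      one_smul := fun C => Subtype.ext (show MulAut.conj ((1 : (P : Subgroup G)) : G) • C.1 = C.1 by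
        rw [coe_one, map_one, one_smul])
      mul_smul := fun u v C => Subtype.ext (show MulAut.conj ((u * v : (P : Subgroup G)) : G) • C.1 = _ by
        rw [coe_mul, map_mul, mul_smul]; rfl) }
  have hsmul : ∀ (u : (P : Subgroup G)) (C : T), (u • C).1 = MulAut.conj (u : G) • C.1 := fun u C => rfl
  -- subgroups outside `P` are not fixed
  have hmain := P.2.card_modEq_card_fixedPoints T
  have hstab : ∀ C : T, C ∈ MulAction.fixedPoints (P : Subgroup G) T → C.1 ≤ (P : Subgroup G) := by
    intro C hC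
    obtain ⟨y, hy, -, hyC⟩ := C.2
    have hn : (P : Subgroup G) ≤ normalizer (C.1 : Set G) := by
      intro u hu
      rw [mem_normalizer_iff]
      intro z
      have hfix : MulAut.conj u • C.1 = C.1 := congrArg Subtype.val (hC ⟨u, hu⟩)
      conv_rhs => rw [← hfix]
      rw [show u * z * u⁻¹ = MulAut.conj u • z from rfl, smul_mem_pointwise_smul_iff]
    have hCp : IsPGroup p C.1 := IsPGroup.of_card (n := s) (by rw [← hyC, Nat.card_zpowers, hy])
    have hsup : IsPGroup p (C.1 ⊔ (P : Subgroup G) : Subgroup G) := hCp.to_sup_of_normal_left' P.2 hn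
    have := P.3 hsup le_sup_right
    exact le_sup_left.trans this.le
  let act₀ : MulAction (P : Subgroup G) T₀ :=
    { smul := fun u C => ⟨MulAut.conj (u : G) • C.1, by
        obtain ⟨y, hy, hyP, hC⟩ := C.2
        refine ⟨MulAut.conj (u : G) y, by rw [← hy]; exact (MulAut.conj (u : G)).orderOf_eq y,
          mul_mem (mul_mem u.2 hyP) (inv_mem u.2), ?_⟩
        rw [← hC]
        exact (MonoidHom.map_zpowers (MulAut.conj (u : G)).toMonoidHom y).symm⟩
      one_smul := fun C => Subtype.ext (show MulAut.conj ((1 : (P : Subgroup G)) : G) • C.1 = C.1 by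
        rw [coe_one, map_one, one_smul])
      mul_smul := fun u v C => Subtype.ext (show MulAut.conj ((u * v : (P : Subgroup G)) : G) • C.1 = _ by
        rw [coe_mul, map_mul, mul_smul]; rfl) }
  have hmain₀ := P.2.card_modEq_card_fixedPoints T₀
  have hfix : Nat.card (MulAction.fixedPoints (P : Subgroup G) T) =
      Nat.card (MulAction.fixedPoints (P : Subgroup G) T₀) := by
    refine Nat.card_congr
      { toFun := fun C => ⟨⟨C.1.1, ?_⟩, fun u => Subtype.ext (congrArg Subtype.val (C.2 u) : _)⟩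
        invFun := fun C => ⟨⟨C.1.1, C.1.2.imp fun y hy => ⟨hy.1, trivial, hy.2.2⟩⟩, fun u => Subtype.ext (congrArg Subtype.val (C.2 u) : _)⟩
        left_inv := fun C => rfl
        right_inv := fun C => rfl }
    obtain ⟨y, hy, -, hyC⟩ := C.1.2
    exact ⟨y, hy, hstab C.1 C.2 (hyC ▸ mem_zpowers y), hyC⟩
  have hpT : p ∣ Nat.card T := by
    rw [← Nat.modEq_zero_iff_dvd]
    calc Nat.card T ≡ Nat.card (MulAction.fixedPoints (P : Subgroup G) T) [MOD p] := hmain
      _ = Nat.card (MulAction.fixedPoints (P : Subgroup G) T₀) := hfix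
      _ ≡ Nat.card T₀ [MOD p] := hmain₀.symm
      _ ≡ 0 [MOD p] := Nat.modEq_zero_iff_dvd.2 hpT₀
  have h1 := hfib (fun _ => True) (fun _ _ _ _ => trivial)
  simp only [and_true] at h1
  rw [h1, Nat.totient_prime_pow hp.out (by omega), ← mul_assoc]
  refine Dvd.dvd.mul_right ?_ _
  have h2 := Nat.mul_dvd_mul_right hpT (p ^ (s - 1))
  rwa [← pow_succ', Nat.sub_add_cancel (by omega : 1 ≤ s)] at h2

/-- Elements of order `p ^ s * m` in a group with non-cyclic Sylow subgroup. -/
theorem dvd_card_orderOf_mul {G : Type*} [Group G] [Finite G] {p : ℕ} [hp : Fact p.Prime]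
    (hp2 : p ≠ 2) (P : Sylow p G) (hnc : ¬ IsCyclic P) {s m : ℕ} (hs : 1 < s) (hm : p.Coprime m) :
    p ^ s ∣ Nat.card {g : G // orderOf g = p ^ s * m} := by
  classical
  have hcop : (p ^ s).Coprime m := hm.pow_left s
  -- split into the `p`-part and the rest
  let Y : G → Type _ := fun z => {y : G // orderOf y = p ^ s ∧ Commute y z}
  have e0 : Nat.card {g : G // orderOf g = p ^ s * m} =
      Nat.card (Σ z : {z : G // orderOf z = m}, Y z.1) := by
    refine (Nat.card_congr (Equiv.ofBijective (fun q : (Σ z : {z : G // orderOf z = m}, Y z.1) =>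
      (⟨q.2.1 * q.1.1, by
        rw [q.2.2.2.orderOf_mul_eq_mul_orderOf_of_coprime (by rw [q.2.2.1, q.1.2]; exact hcop), q.2.2.1, q.1.2]⟩ :
        {g : G // orderOf g = p ^ s * m})) ⟨?_, ?_⟩)).symm
    · rintro ⟨⟨z, hz⟩, ⟨y, hy, hc⟩⟩ ⟨⟨z', hz'⟩, ⟨y', hy', hc'⟩⟩ heq
      have he : y * z = y' * z' := congrArg Subtype.val heq
      obtain ⟨a, b, hab⟩ := Nat.isCoprime_iff_coprime.2 hcop
      have key : ∀ {y z : G}, orderOf y = p ^ s → orderOf z = m → Commute y z →
          (y * z) ^ (b * (m : ℤ)) = y := by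
        intro y z hy hz hc
        have hzm : z ^ (b * (m : ℤ)) = 1 := by
          rw [← orderOf_dvd_iff_zpow_eq_one, hz]; exact dvd_mul_left _ _
        have hyp : y ^ (a * ((p ^ s : ℕ) : ℤ)) = 1 := by
          rw [← orderOf_dvd_iff_zpow_eq_one, hy]; exact dvd_mul_left _ _
        rw [hc.mul_zpow, hzm, mul_one]
        calc y ^ (b * (m : ℤ)) = y ^ (a * ((p ^ s : ℕ) : ℤ)) * y ^ (b * (m : ℤ)) := by rw [hyp, one_mul]
          _ = y := by rw [← zpow_add, hab, zpow_one]
      have hyy : y = y' := by rw [← key hy hz hc, he, key hy' hz' hc']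
      subst hyy
      obtain rfl := mul_left_cancel he
      rfl
    · rintro ⟨g, hg⟩
      obtain ⟨y, z, hy, hz, hyz, ⟨k, hk⟩, hzc⟩ :=
        exists_pPart_mul_pPrimePart g (isOfFinOrder_of_finite g) hp.out
      have hc : Commute y z := by
        obtain ⟨i, rfl⟩ := mem_zpowers_iff.1 hy
        obtain ⟨j, rfl⟩ := mem_zpowers_iff.1 hz
        exact (Commute.refl g).zpow_zpow i j
      have ho := hc.orderOf_mul_eq_mul_orderOf_of_coprime (by rw [hk]; exact hzc.symm.pow_left k)
      rw [hyz, hg, hk] at ho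
      have h1 : p ^ k = p ^ s := by
        refine Nat.dvd_antisymm ?_ ?_
        · exact (hm.pow_left k).dvd_of_dvd_mul_right (ho ▸ dvd_mul_right (p ^ k) _)
        · exact (hzc.symm.pow_left s).dvd_of_dvd_mul_right (ho ▸ dvd_mul_right (p ^ s) m)
      have h2 : orderOf z = m := by
        rw [h1] at ho
        exact (Nat.eq_of_mul_eq_mul_left (pow_pos hp.out.pos s) ho).symm
      exact ⟨⟨⟨z, h2⟩, ⟨y, hk.trans h1, hc⟩⟩, Subtype.ext hyz⟩
  rw [e0, ← Nat.card_congr (Equiv.sigmaFiberEquiv (fun q : (Σ z : {z : G // orderOf z = m}, Y z.1) => ConjClasses.mk q.1.1))]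
  have := Fintype.ofFinite (ConjClasses G)
  rw [Nat.card_sigma]
  refine Finset.dvd_sum fun c _ => ?_
  induction c using Quotient.inductionOn with
  | _ z₀ =>
  by_cases hz₀ : orderOf z₀ = m
  swap
  · haveI : IsEmpty {q : (Σ z : {z : G // orderOf z = m}, Y z.1) // ConjClasses.mk q.1.1 = ConjClasses.mk z₀} := by
      refine ⟨fun q => hz₀ ?_⟩
      obtain ⟨u, hu⟩ := isConj_iff.1 (ConjClasses.mk_eq_mk_iff_isConj.1 q.2)
      rw [← hu]
      exact ((MulAut.conj u).orderOf_eq q.1.1.1).trans q.1.1.2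
    show p ^ s ∣ Nat.card {q : (Σ z : {z : G // orderOf z = m}, Y z.1) // ConjClasses.mk q.1.1 = ConjClasses.mk z₀}
    rw [Nat.card_of_isEmpty]; exact dvd_zero _
  -- the fibre over the class of `z₀`
  have hu : ∀ z : (ConjClasses.mk z₀).carrier, ∃ u : G, u * z₀ * u⁻¹ = (z : G) := fun z =>
    isConj_iff.1 (ConjClasses.mk_eq_mk_iff_isConj.1 (ConjClasses.mem_carrier_iff_mk_eq.1 z.2).symm)
  choose u hu using hu
  have hmz : ∀ z : (ConjClasses.mk z₀).carrier, orderOf (z : G) = m := fun z => by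
    rw [← hu z, ← hz₀]; exact (MulAut.conj (u z)).orderOf_eq z₀
  have hY : ∀ z : (ConjClasses.mk z₀).carrier, Nat.card (Y (z : G)) = Nat.card (Y z₀) := by
    intro z
    refine (Nat.card_congr ((MulAut.conj (u z)).toEquiv.subtypeEquiv fun y => ?_)).symm
    show orderOf y = p ^ s ∧ Commute y z₀ ↔ orderOf (MulAut.conj (u z) y) = p ^ s ∧ Commute (MulAut.conj (u z) y) z
    rw [(MulAut.conj (u z)).orderOf_eq y, ← hu z, ← MulAut.conj_apply]
    exact and_congr_right fun _ => (commute_map_iff (MulAut.conj (u z)).injective).symm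
  have e1 : Nat.card {q : (Σ z : {z : G // orderOf z = m}, Y z.1) // ConjClasses.mk q.1.1 = ConjClasses.mk z₀} =
      (centralizer ({z₀} : Set G)).index * Nat.card (Y z₀) := by
    have e2 : {q : (Σ z : {z : G // orderOf z = m}, Y z.1) // ConjClasses.mk q.1.1 = ConjClasses.mk z₀} ≃
        (Σ z : (ConjClasses.mk z₀).carrier, Y (z : G)) :=
      { toFun := fun q => ⟨⟨q.1.1.1, ConjClasses.mem_carrier_iff_mk_eq.2 q.2⟩, q.1.2⟩
        invFun := fun w => ⟨⟨⟨w.1.1, hmz w.1⟩, w.2⟩, ConjClasses.mem_carrier_iff_mk_eq.1 w.1.2⟩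
        left_inv := fun q => rfl
        right_inv := fun w => rfl }
    have := Fintype.ofFinite (ConjClasses.mk z₀).carrier
    rw [Nat.card_congr e2, Nat.card_sigma, Finset.sum_congr rfl (fun z _ => hY z), Finset.sum_const, Finset.card_univ,
      ← Nat.card_eq_fintype_card, Nat.card_coe_set_eq, ncard_carrier_eq_index, smul_eq_mul]
  show p ^ s ∣ Nat.card {q : (Σ z : {z : G // orderOf z = m}, Y z.1) // ConjClasses.mk q.1.1 = ConjClasses.mk z₀}
  rw [e1]
  set C := centralizer ({z₀} : Set G)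
  have hYC : Nat.card (Y z₀) = Nat.card {y : C // orderOf y = p ^ s} := Nat.card_congr
    { toFun := fun y => ⟨⟨y.1, mem_centralizer_singleton_iff.2 y.2.2.eq⟩, by rw [Subgroup.orderOf_mk]; exact y.2.1⟩
      invFun := fun y => ⟨(y.1 : G), by rw [orderOf_coe]; exact y.2, mem_centralizer_singleton_iff.1 y.1.2⟩
      left_inv := fun y => rfl
      right_inv := fun y => rfl }
  rw [hYC]
  obtain ⟨Q⟩ : Nonempty (Sylow p C) := inferInstance
  by_cases hQ : IsCyclic Q
  · have hpi : p ∣ C.index := by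
      by_contra hnd
      have hq' : ¬ p ∣ ((Q : Subgroup C).map C.subtype).index := by
        rw [index_map_subtype]
        intro hd
        rcases hp.out.dvd_mul.1 hd with h1 | h1
        · exact Q.not_dvd_index h1
        · exact hnd h1
      let R : Sylow p G := (Q.2.map C.subtype).toSylow hq'
      apply hnc
      haveI : IsCyclic ((Q : Subgroup C).map C.subtype) :=
        isCyclic_of_surjective ((Q : Subgroup C).equivMapOfInjective C.subtype C.subtype_injective).toMonoidHom
          (MulEquiv.surjective _)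
      haveI : IsCyclic (R : Subgroup G) := by
        rw [show (R : Subgroup G) = (Q : Subgroup C).map C.subtype from IsPGroup.toSylow_coe _ hq']; infer_instance
      exact isCyclic_of_surjective (R.equiv P).toMonoidHom (R.equiv P).surjective
    have h2 := (Nat.totient_prime_pow hp.out (by omega : 0 < s)) ▸ totient_dvd_card_orderOf (G := C) (p ^ s)
    refine dvd_trans ?_ (Nat.mul_dvd_mul hpi ((dvd_mul_right _ _).trans h2))
    rw [← pow_succ', Nat.sub_add_cancel (by omega : 1 ≤ s)]
  · exact Dvd.dvd.mul_left (dvd_card_orderOf_of_sylow hp2 Q hQ hs) _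

end Cfsg.Agent.H86
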