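import Mathlib.GroupTheory.Commutator.Basic
import Mathlib.GroupTheory.Nilpotent
import Mathlib.GroupTheory.FixedPointFree
import Mathlib.GroupTheory.Subgroup.Centralizer
import Mathlib.Tactic.Group

/-!
Groups in which every element commutes with its conjugates, and groups with a splitting
automorphism of order three (B. H. Neumann).
-/

namespace Cfsg.Agent.H86

open scoped commutatorElement

variable {N : Type*} [Group N]

/-- Every element commutes with all of its conjugates. -/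
def CommutesConjugates (N : Type*) [Group N] : Prop :=
  ∀ a d : N, Commute a (d * a * d⁻¹)

namespace CommutesConjugates

/-- The closure of the conjugacy class of `x`. -/
def classClosure (x : N) : Subgroup N :=
  Subgroup.closure (Set.range fun d : N => d * x * d⁻¹)

theorem self_mem (x : N) : x ∈ classClosure x := Subgroup.subset_closure ⟨1, by simp⟩

theorem conj_mem {x w : N} (hw : w ∈ classClosure x) (d : N) : d * w * d⁻¹ ∈ classClosure x := by
  induction hw using Subgroup.closure_induction with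
  | mem w hw =>
    obtain ⟨e, rfl⟩ := hw
    exact Subgroup.subset_closure ⟨d * e, by simp [mul_assoc]⟩
  | one => simp
  | mul a b _ _ ha hb =>
    have := Subgroup.mul_mem _ ha hb
    simpa [mul_assoc] using this
  | inv a _ ha => simpa [mul_assoc] using Subgroup.inv_mem _ ha

theorem commutator_mem {x w : N} (hw : w ∈ classClosure x) (d : N) : ⁅w, d⁆ ∈ classClosure x := by
  rw [commutatorElement_def, show w * d * w⁻¹ * d⁻¹ = w * (d * w⁻¹ * d⁻¹) by group]
  exact Subgroup.mul_mem _ hw (conj_mem (Subgroup.inv_mem _ hw) d)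

theorem commute_classClosure (h : CommutesConjugates N) {x a b : N} (ha : a ∈ classClosure x)
    (hb : b ∈ classClosure x) : Commute a b := by
  have : IsMulCommutative (classClosure x) := Subgroup.isMulCommutative_closure (by
    rintro _ ⟨d, rfl⟩ _ ⟨e, rfl⟩
    have h1 := (h x (d⁻¹ * e)).map (MulAut.conj d).toMonoidHom
    simpa [mul_assoc] using h1.eq)
  exact congrArg Subtype.val (this.is_comm.comm ⟨a, ha⟩ ⟨b, hb⟩)

theorem comm_right (h : CommutesConjugates N) (x y : N) : y * ⁅x, y⁆ * y⁻¹ = ⁅x, y⁆ := by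
  have h1 : Commute y (x * y * x⁻¹ * y⁻¹) := (h y x).mul_right (Commute.refl y).inv_right
  rw [commutatorElement_def, h1.eq]; group

theorem triple_right (h : CommutesConjugates N) (x y z : N) : y * ⁅⁅x, y⁆, z⁆ * y⁻¹ = ⁅⁅x, y⁆, z⁆ := by
  have hu : Commute y ⁅x, y⁆ := by
    rw [commutatorElement_def]; exact (h y x).mul_right (Commute.refl y).inv_right
  have hconj : Commute y (z * ⁅x, y⁆ * z⁻¹) := by
    have h1 : Commute (z⁻¹ * y * z) ⁅x, y⁆ := by
      have hy : ∀ d : N, Commute (z⁻¹ * y * z) (d * y * d⁻¹) := fun d => by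
        have h2 := (h y (z * d)).map (MulAut.conj z⁻¹).toMonoidHom
        simpa [mul_assoc] using h2
      rw [commutatorElement_def]
      refine (hy x).mul_right ?_
      simpa using (hy 1).inv_right
    have h3 := h1.map (MulAut.conj z).toMonoidHom
    simp only [MulEquiv.coe_toMonoidHom, MulAut.conj_apply] at h3
    rwa [show z * (z⁻¹ * y * z) * z⁻¹ = y by group] at h3
  have h4 : Commute y ⁅⁅x, y⁆, z⁆ := by
    rw [commutatorElement_def ⁅x, y⁆, show ⁅x, y⁆ * z * ⁅x, y⁆⁻¹ * z⁻¹ = ⁅x, y⁆ * (z * ⁅x, y⁆ * z⁻¹)⁻¹ by group]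
    exact hu.mul_right hconj.inv_right
  rw [h4.eq]; group

/-- The triple commutator changes to its inverse when the last two entries are exchanged. -/
theorem triple_swap (h : CommutesConjugates N) (x y z : N) : ⁅⁅x, y⁆, z⁆ * ⁅⁅x, z⁆, y⁆ = 1 := by
  set u := ⁅x, y⁆ with hu
  set v := ⁅x, z⁆ with hv
  set f := ⁅u, z⁆ with hf
  set g := ⁅v, y⁆ with hg
  have mu : u ∈ classClosure x := commutator_mem (self_mem x) y
  have mv : v ∈ classClosure x := commutator_mem (self_mem x) z
  have mf : f ∈ classClosure x := commutator_mem mu z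
  have mg : g ∈ classClosure x := commutator_mem mv y
  have hyv : y * v * y⁻¹ = g⁻¹ * v := by
    rw [hg, commutatorElement_def]; group
  have hzu : z * u * z⁻¹ = f⁻¹ * u := by
    rw [hf, commutatorElement_def]; group
  have hyu : y * u * y⁻¹ = u := h.comm_right x y
  have hzv : z * v * z⁻¹ = v := h.comm_right x z
  have hyf : y * f * y⁻¹ = f := h.triple_right x y z
  have hzg : z * g * z⁻¹ = g := h.triple_right x z y
  have hyg : y * g * y⁻¹ = g := h.comm_right v y
  have hw : ⁅x, y * z⁆ = u * (g⁻¹ * v) := by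
    rw [← hyv, hu, hv, commutatorElement_def, commutatorElement_def, commutatorElement_def]; group
  have h1 := h.comm_right x (y * z)
  rw [hw] at h1
  have h2 : f⁻¹ * u * (g⁻¹ * (g⁻¹ * v)) = u * (g⁻¹ * v) := by
    calc f⁻¹ * u * (g⁻¹ * (g⁻¹ * v))
        = (y * f * y⁻¹)⁻¹ * (y * u * y⁻¹) * ((y * g * y⁻¹)⁻¹ * (y * v * y⁻¹)) := by
          rw [hyf, hyu, hyg, hyv]
      _ = y * ((f⁻¹ * u) * (g⁻¹ * v)) * y⁻¹ := by group
      _ = y * ((z * u * z⁻¹) * ((z * g * z⁻¹)⁻¹ * (z * v * z⁻¹))) * y⁻¹ := by rw [hzu, hzg, hzv]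
      _ = y * z * (u * (g⁻¹ * v)) * (y * z)⁻¹ := by group
      _ = u * (g⁻¹ * v) := h1
  have hfu : Commute f⁻¹ u := h.commute_classClosure (Subgroup.inv_mem _ mf) mu
  rw [hfu.eq, mul_assoc, mul_left_cancel_iff, ← mul_assoc, ← mul_assoc,
    mul_right_cancel_iff] at h2
  have hfg : Commute f g := h.commute_classClosure mf mg
  have h3 : f⁻¹ * g⁻¹ = 1 := mul_right_cancel (h2.trans (one_mul _).symm)
  calc f * g = g * f := hfg.eq
    _ = (f⁻¹ * g⁻¹)⁻¹ := by group
    _ = 1 := by rw [h3, inv_one]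

/-- The triple commutator changes to its inverse when the first two entries are exchanged. -/
theorem triple_inv (h : CommutesConjugates N) (x y z : N) : ⁅⁅y, x⁆, z⁆ = ⁅⁅x, y⁆, z⁆⁻¹ := by
  rw [← commutatorElement_inv x y]
  have h1 : Commute ⁅x, y⁆ (z * ⁅x, y⁆ * z⁻¹) := h _ z
  have h2 : Commute ⁅x, y⁆⁻¹ (z * ⁅x, y⁆ * z⁻¹) := h1.inv_left
  rw [commutatorElement_def (⁅x, y⁆⁻¹) z, commutatorElement_inv (⁅x, y⁆) z, commutatorElement_def z]
  calc ⁅x, y⁆⁻¹ * z * ⁅x, y⁆⁻¹⁻¹ * z⁻¹ = ⁅x, y⁆⁻¹ * (z * ⁅x, y⁆ * z⁻¹) := by group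
    _ = (z * ⁅x, y⁆ * z⁻¹) * ⁅x, y⁆⁻¹ := h2.eq
    _ = _ := by group

/-- Triple commutators have order dividing three. -/
theorem triple_pow_three (h : CommutesConjugates N) (a b c : N) : ⁅⁅a, b⁆, c⁆ ^ 3 = 1 := by
  have key : ∀ a b c : N, ⁅⁅a, b⁆, b * c * b⁻¹⁆ = ⁅⁅a, b⁆, c⁆ := by
    intro a b c
    calc ⁅⁅a, b⁆, b * c * b⁻¹⁆ = ⁅b * ⁅a, b⁆ * b⁻¹, b * c * b⁻¹⁆ := by rw [h.comm_right]
      _ = b * ⁅⁅a, b⁆, c⁆ * b⁻¹ := by simp only [commutatorElement_def]; group
      _ = ⁅⁅a, b⁆, c⁆ := h.triple_right a b c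
  have cyc : ∀ a b c : N, ⁅⁅b, c⁆, a⁆ = ⁅⁅a, b⁆, c⁆ := by
    intro a b c
    rw [eq_inv_of_mul_eq_one_left (h.triple_swap b c a), h.triple_inv, inv_inv]
  have hw := commutatorElement_commutatorElement_conj_mul a b c
  rw [key, key, key, cyc a b c, cyc b c a, cyc a b c] at hw
  rwa [pow_succ, pow_succ, pow_one]

end CommutesConjugates

/-- Neumann: an automorphism `σ` of order three with every element `u` satisfying both
`u * σ u * σ² u = 1` and `σ² u * σ u * u = 1` forces elements to commute with their conjugates. -/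
theorem commutesConjugates_of_splitting [Finite N] (σ : N ≃* N)
    (hfpf : ∀ x : N, σ x = x → x = 1)
    (h1 : ∀ u : N, u * σ u * σ (σ u) = 1) (h2 : ∀ u : N, σ (σ u) * σ u * u = 1) :
    CommutesConjugates N := by
  have h3 : ∀ u : N, Commute u (σ u) := fun u => by
    have e1 : u * σ u = (σ (σ u))⁻¹ := eq_inv_of_mul_eq_one_left (h1 u)
    have e2 : σ u * u = (σ (σ u))⁻¹ := eq_inv_of_mul_eq_one_right (by rw [← mul_assoc]; exact h2 u)
    exact e1.trans e2.symm
  have h4 : ∀ a d : N, Commute a (d * σ a * d⁻¹) := by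
    intro a d
    obtain ⟨c, hc⟩ := (Finite.injective_iff_surjective.1
      (show Function.Injective fun c : N => c⁻¹ * σ c from fun x y hxy => by
        have : σ (y * x⁻¹) = y * x⁻¹ := by
          rw [map_mul, map_inv]
          calc σ y * (σ x)⁻¹ = y * (y⁻¹ * σ y) * (x⁻¹ * σ x)⁻¹ * x⁻¹ := by group
            _ = y * x⁻¹ := by rw [show x⁻¹ * σ x = y⁻¹ * σ y from hxy]; group
        exact (eq_of_div_eq_one (by rw [div_eq_mul_inv]; exact hfpf _ this)).symm)) d
    have h5 := (h3 (c * a * c⁻¹)).map (MulAut.conj c⁻¹).toMonoidHom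
    have h6 : MulAut.conj c⁻¹ (σ (c * a * c⁻¹)) = d * σ a * d⁻¹ := by
      rw [← hc]; simp [mul_assoc]
    have h7 : MulAut.conj c⁻¹ (c * a * c⁻¹) = a := by simp [mul_assoc]
    rw [MulEquiv.coe_toMonoidHom, h6, h7] at h5
    exact h5
  intro a d
  have h8 : Commute a (σ a) := by simpa using h4 a 1
  have h9 : Commute a (d * σ (σ a) * d⁻¹) := by
    have h10 := (h4 (σ (σ a)) d⁻¹).map (MulAut.conj d).toMonoidHom
    have hσ : σ (σ (σ a)) = a := by
      have e1 := h1 a
      have e2 := h1 (σ a)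
      have e3 : σ a * σ (σ a) = a⁻¹ := eq_inv_of_mul_eq_one_right (by rw [← mul_assoc]; exact e1)
      rw [e3] at e2
      simpa using (inv_mul_eq_one.1 e2).symm
    simpa [hσ, mul_assoc] using h10.symm
  have h11 : a = (σ a * σ (σ a))⁻¹ := eq_inv_of_mul_eq_one_left (by rw [← mul_assoc]; exact h1 a)
  have h12 : d * a * d⁻¹ = ((d * σ a * d⁻¹) * (d * σ (σ a) * d⁻¹))⁻¹ := by
    calc d * a * d⁻¹ = d * (σ a * σ (σ a))⁻¹ * d⁻¹ := by rw [← h11]
      _ = _ := by group
  rw [h12]
  exact ((h4 a d).mul_right h9).inv_right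

/-- A finite group without elements of order three in which elements commute with their conjugates
has class at most two. -/
theorem nilpotencyClass_le_two_of_commutesConjugates [Group.IsNilpotent N] (h : CommutesConjugates N)
    (h3 : ∀ x : N, x ^ 3 = 1 → x = 1) : Group.nilpotencyClass N ≤ 2 := by
  rw [← Subgroup.upperCentralSeries_eq_top_iff_nilpotencyClass_le]
  refine top_le_iff.1 fun x _ => ?_
  rw [show (2 : ℕ) = 1 + 1 from rfl, Subgroup.mem_upperCentralSeries_succ_iff]
  intro y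
  rw [Subgroup.upperCentralSeries_one, Subgroup.mem_center_iff]
  intro z
  exact (commutatorElement_eq_one_iff_mul_comm.1 (h3 _ (h.triple_pow_three x y z))).symm

end Cfsg.Agent.H86
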