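import Mathlib.GroupTheory.Coset.Basic
import Mathlib.Tactic.IntervalCases
import Cfsg.Agent.H25.Burnside
import Cfsg.Agent.H49.Homs
import Cfsg.Agent.H86.CPGroup
import Cfsg.Agent.H86.Engel
import Cfsg.Agent.H86.Basic
import Cfsg.Prelude.Def_Transfer

/-!
Finite groups whose element orders are at most four.
-/

namespace Cfsg.Agent.H86

open Subgroup
open scoped commutatorElement

/-- All element orders are at most four. -/
def OrderLeFour (G : Type*) [Group G] : Prop := ∀ g : G, orderOf g ≤ 4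

namespace OrderLeFour

variable {G : Type*} [Group G] [Finite G]

theorem cases_four (h : OrderLeFour G) (g : G) :
    orderOf g = 1 ∨ orderOf g = 2 ∨ orderOf g = 3 ∨ orderOf g = 4 := by
  have := h g; have := orderOf_pos g; omega

theorem allPrimePower (h : OrderLeFour G) : AllPrimePowerOrder G := by
  intro g hg
  rcases h.cases_four g with e | e | e | e
  · exact absurd (orderOf_eq_one_iff.1 e) hg
  · rw [e]; exact Nat.prime_two.isPrimePow
  · rw [e]; exact Nat.prime_three.isPrimePow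
  · rw [e]; exact (isPrimePow_nat_iff 4).2 ⟨2, 2, Nat.prime_two, by norm_num, by norm_num⟩

theorem quotient (h : OrderLeFour G) (N : Subgroup G) [N.Normal] : OrderLeFour (G ⧸ N) := by
  rintro ⟨g⟩
  exact le_trans (Nat.le_of_dvd (orderOf_pos g) (orderOf_map_dvd (QuotientGroup.mk' N) g)) (h g)

theorem prime_eq (h : OrderLeFour G) {p : ℕ} (hp : p.Prime) (hd : p ∣ Nat.card G) : p = 2 ∨ p = 3 := by
  have := Fact.mk hp
  obtain ⟨g, hg⟩ := exists_prime_orderOf_dvd_card' p hd
  rcases h.cases_four g with e | e | e | e <;> rw [hg] at e <;> subst e <;>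
    first | exact Or.inl rfl | exact Or.inr rfl | exact absurd hp (by norm_num)

theorem isSolvable (h : OrderLeFour G) : Group.IsSolvable G := by
  obtain ⟨a, ha⟩ : ∃ a, a = (Nat.card G).factorization 2 := ⟨_, rfl⟩
  set b := (Nat.card G).factorization 3
  refine H25.isSolvable_of_card_eq_mul_pow (a := a) (b := b) Nat.prime_two Nat.prime_three ?_
  conv_lhs => rw [← Nat.prod_factorization_pow_eq_self (n := Nat.card G) Nat.card_pos.ne']
  rw [Nat.prod_factorization_eq_prod_primeFactors, Finset.prod_subset (s₂ := {2, 3}) ?_ ?_]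
  · rw [Finset.prod_pair (by norm_num), ha]
  · intro p hp
    rcases h.prime_eq (Nat.prime_of_mem_primeFactors hp) (Nat.dvd_of_mem_primeFactors hp) with rfl | rfl <;> simp
  · intro p hp hn
    have hp' : p.Prime := by
      simp only [Finset.mem_insert, Finset.mem_singleton] at hp
      rcases hp with rfl | rfl <;> norm_num
    rw [Nat.factorization_eq_zero_of_not_dvd fun hd => hn (Nat.mem_primeFactors.2 ⟨hp', hd, Nat.card_pos.ne'⟩),
      pow_zero]

/-- An element with image of order two squares to one or has order four. -/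
theorem pow_four_of_even (h : OrderLeFour G) {g : G} (hg : 2 ∣ orderOf g) : g ^ 4 = 1 := by
  rw [← orderOf_dvd_iff_pow_eq_one]
  rcases h.cases_four g with e | e | e | e <;> rw [e] at hg ⊢ <;> omega

theorem pow_four_of_not_three (h : OrderLeFour G) {g : G} (hg : orderOf g ≠ 3) : g ^ 4 = 1 := by
  rw [← orderOf_dvd_iff_pow_eq_one]
  rcases h.cases_four g with e | e | e | e <;> rw [e] at hg ⊢ <;> omega

theorem pow_three_of_dvd (h : OrderLeFour G) {g : G} (hg : 3 ∣ orderOf g) : g ^ 3 = 1 := by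
  rw [← orderOf_dvd_iff_pow_eq_one]
  rcases h.cases_four g with e | e | e | e <;> rw [e] at hg ⊢ <;> omega

theorem pow_four_of_mem (h : OrderLeFour G) {N : Subgroup G} (hN : IsPGroup 2 N) {u : G} (hu : u ∈ N) :
    u ^ 4 = 1 := by
  refine h.pow_four_of_not_three fun e => ?_
  obtain ⟨k, hk⟩ := exists_orderOf_eq_pow_of_mem hN hu
  rw [e] at hk
  have := Nat.prime_three.dvd_of_dvd_pow (show 3 ∣ 2 ^ k by rw [← hk])
  omega

theorem pow_three_of_mem (h : OrderLeFour G) {N : Subgroup G} (hN : IsPGroup 3 N) {u : G} (hu : u ∈ N) :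
    u ^ 3 = 1 := by
  rw [← orderOf_dvd_iff_pow_eq_one]
  obtain ⟨k, hk⟩ := exists_orderOf_eq_pow_of_mem hN hu
  rcases h.cases_four u with e | e | e | e <;> rw [e] at hk ⊢ <;>
    first | omega | (have := Nat.Prime.dvd_of_dvd_pow Nat.prime_two (show 2 ∣ 3 ^ k by rw [← hk] <;> norm_num); omega)

end OrderLeFour

/-- A group of exponent four with a unique involution that has an element of order four. -/
theorem cyclic_four_or_quaternion {Q : Type*} [Group Q] [Finite Q] (h4 : ∀ x : Q, x ^ 4 = 1) {z : Q}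
    (huniq : ∀ x : Q, x * x = 1 → x = 1 ∨ x = z) {a : Q} (ha : orderOf a = 4) :
    (IsCyclic Q ∧ Nat.card Q = 4) ∨ Nonempty (Q ≃* QuaternionGroup 2) := by
  have hne : ∀ {x : Q}, x ∉ zpowers a → x ≠ 1 := fun hx e => hx (e ▸ one_mem _)
  have ha1 : a ≠ 1 := fun e => by rw [e, orderOf_one] at ha; norm_num at ha
  have hsq : a * a = z := by
    rcases huniq (a * a) (by rw [← h4 a]; simp only [pow_succ, pow_zero, one_mul, mul_assoc]) with e | e
    · have : orderOf a ∣ 2 := orderOf_dvd_of_pow_eq_one (by rw [pow_two, e])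
      rw [ha] at this; norm_num at this
    · exact e
  have haa : a ^ 2 ∈ zpowers a := pow_mem (mem_zpowers a) 2
  rw [pow_two, hsq] at haa
  have hsq' : ∀ {x : Q}, x ∉ zpowers a → x * x = z := by
    intro x hx
    rcases huniq (x * x) (by rw [← h4 x]; simp only [pow_succ, pow_zero, one_mul, mul_assoc]) with e | e
    · rcases huniq x e with e' | e'
      · exact absurd e' (hne hx)
      · exact absurd (e' ▸ haa) hx
    · exact e
  have hinv : ∀ {b : Q}, b ∉ zpowers a → b * a * b⁻¹ = a⁻¹ := by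
    intro b hb
    have hab : a * b ∉ zpowers a := fun hc => hb ((mul_mem_cancel_left (mem_zpowers a)).1 hc)
    have h1 : a * b * (a * b) = a * a := (hsq' hab).trans hsq.symm
    have h2 : b * a * b = a := by
      apply mul_left_cancel (a := a)
      rw [← h1]; group
    have h3 : b * b = a * a := (hsq' hb).trans hsq.symm
    calc b * a * b⁻¹ = b * a * b * (b * b)⁻¹ := by group
      _ = a * (a * a)⁻¹ := by rw [h2, h3]
      _ = a⁻¹ := by group
  by_cases htop : zpowers a = ⊤
  · refine Or.inl ⟨⟨a, fun x => mem_zpowers_iff.1 (by rw [htop]; exact mem_top x)⟩, ?_⟩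
    rw [← Subgroup.card_top (G := Q), ← htop, Nat.card_zpowers, ha]
  obtain ⟨b, hb⟩ : ∃ b, b ∉ zpowers a := by
    by_contra hc
    push Not at hc
    exact htop (eq_top_iff' _ |>.2 hc)
  refine Or.inr ?_
  have hindex : (zpowers a).index = 2 := by
    refine index_eq_two_iff.2 ⟨b, fun c => ?_⟩
    by_cases hc : c ∈ zpowers a
    · exact Or.inr ⟨hc, fun hc' => hb ((mul_mem_cancel_left hc).1 hc')⟩
    · refine Or.inl ⟨?_, hc⟩
      by_contra hcb
      have e1 := hinv hcb
      rw [mul_inv_rev] at e1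
      have e2 : c * a⁻¹ * c⁻¹ = a⁻¹ := by
        calc c * a⁻¹ * c⁻¹ = c * (b * a * b⁻¹) * c⁻¹ := by rw [hinv hb]
          _ = c * b * a * (b⁻¹ * c⁻¹) := by group
          _ = a⁻¹ := e1
      have e3 : a⁻¹ = a := by
        calc a⁻¹ = c * a * c⁻¹ := (hinv hc).symm
          _ = (c * a⁻¹ * c⁻¹)⁻¹ := by group
          _ = a := by rw [e2, inv_inv]
      have : orderOf a ∣ 2 := orderOf_dvd_of_pow_eq_one (by rw [pow_two]; nth_rewrite 1 [← e3]; group)
      rw [ha] at this; norm_num at this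
  have hcard : Nat.card Q = 4 * 2 := by rw [← (zpowers a).card_mul_index, Nat.card_zpowers, ha, hindex]
  obtain ⟨e⟩ := H49.nonempty_equiv_quaternion (m := 2) (⊤ : Subgroup Q) (A := a) (B := b) (mem_top _) (mem_top _)
    (by rw [Subgroup.card_top]; exact hcard) (by rw [ha])
    (by rw [hsq' hb, pow_two, hsq]) (hinv hb) hb
  exact ⟨Subgroup.topEquiv.symm.trans e⟩

namespace OrderLeFour

variable {G : Type*} [Group G] [Finite G]

/-- An involution inverts a commutative normal `3`-subgroup. -/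
theorem invert_three (h : OrderLeFour G) {V : Subgroup G} [hVn : V.Normal] (hV : IsPGroup 3 V)
    (hVc : IsMulCommutative V) {t : G} (ht : orderOf t = 2) {v : G} (hv : v ∈ V) : t * v * t⁻¹ = v⁻¹ := by
  have htt : t * t = 1 := by rw [← pow_two, ← ht, pow_orderOf_eq_one]
  have hw : t * v * t⁻¹ ∈ V := hVn.conj_mem v hv t
  have hcomm : v * (t * v * t⁻¹) = (t * v * t⁻¹) * v :=
    congrArg Subtype.val (hVc.is_comm.comm ⟨v, hv⟩ ⟨_, hw⟩)
  have hti : t⁻¹ = t := inv_eq_of_mul_eq_one_right htt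
  have hfix : Commute t (v * (t * v * t⁻¹)) := by
    show t * _ = _ * t
    calc t * (v * (t * v * t⁻¹)) = t * v * t⁻¹ * (t * t * v * (t * t)⁻¹) * t := by group
      _ = t * v * t⁻¹ * v * t := by rw [htt]; group
      _ = v * (t * v * t⁻¹) * t := by rw [hcomm]
  by_contra hne
  have hne' : v * (t * v * t⁻¹) ≠ 1 := fun e => hne (eq_inv_of_mul_eq_one_right e)
  obtain ⟨k, hk⟩ := exists_orderOf_eq_pow_of_mem hV (mul_mem hv hw)
  have h3 := h.pow_three_of_mem hV (mul_mem hv hw)
  have ho : orderOf (v * (t * v * t⁻¹)) = 3 := orderOf_eq_prime (hp := ⟨Nat.prime_three⟩) h3 hne'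
  exact h.allPrimePower.not_commute Nat.prime_two Nat.prime_three (by norm_num) ht ho hfix

/-- The structure when there is a normal `3`-subgroup. -/
theorem three_case (h : OrderLeFour G) {V : Subgroup G} [hVn : V.Normal] (hV : IsPGroup 3 V)
    (hV1 : V ≠ ⊥) (hVc : IsMulCommutative V) {t : G} (ht : orderOf t = 2) :
    ∃ N : Subgroup G, ∃ _ : N.Normal, Cfsg.IsElementaryAbelian 3 N ∧ (QuotientGroup.mk t : G ⧸ N) ≠ 1 ∧
      IsPGroup 3 N ∧ (∀ x : G ⧸ N, x ^ 4 = 1) ∧
      ∀ x : G ⧸ N, x * x = 1 → x = 1 ∨ x = QuotientGroup.mk t := by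
  have := Fact.mk Nat.prime_three
  set N := centralizer (V : Set G)
  have hNn : N.Normal := inferInstance
  obtain ⟨v, hv, hvo⟩ := AllPrimePowerOrder.exists_orderOf_eq hV hV1
  have hN3 : IsPGroup 3 N :=
    h.allPrimePower.isPGroup_centralizer hvo N fun c hc => (mem_centralizer_iff.1 hc v hv).symm
  have hno2 : ∀ s : G, orderOf s = 2 → s ∉ N := by
    intro s hs hsN
    exact h.allPrimePower.not_commute Nat.prime_two Nat.prime_three (by norm_num) hs hvo
      (mem_centralizer_iff.1 hsN v hv).symm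
  have hpair : ∀ s : G, orderOf s = 2 → (QuotientGroup.mk s : G ⧸ N) = QuotientGroup.mk t := by
    intro s hs
    refine QuotientGroup.eq.2 (mem_centralizer_iff.2 fun w hw => ?_)
    have e1 := h.invert_three hV hVc ht hw
    have e2 := h.invert_three hV hVc hs hw
    have e3 : s⁻¹ * (t * w * t⁻¹) * s = w := by
      rw [e1, ← e2]; group
    calc w * (s⁻¹ * t) = s⁻¹ * (t * w * t⁻¹) * s * (s⁻¹ * t) := by rw [e3]
      _ = s⁻¹ * t * w := by group
  have htne : (QuotientGroup.mk t : G ⧸ N) ≠ 1 := fun e => hno2 t ht ((QuotientGroup.eq_one_iff t).1 e)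
  have ht2 : orderOf (QuotientGroup.mk t : G ⧸ N) = 2 := by
    refine orderOf_eq_prime (hp := ⟨Nat.prime_two⟩) ?_ htne
    rw [← QuotientGroup.mk_pow, ← ht, pow_orderOf_eq_one]; rfl
  have hq4 : ∀ x : G ⧸ N, x ^ 4 = 1 := by
    intro x
    obtain ⟨g, rfl⟩ := QuotientGroup.mk'_surjective N x
    by_contra hne
    have hg3 : orderOf g = 3 := by
      by_contra hg
      exact hne (by rw [← map_pow, h.pow_four_of_not_three hg, map_one])
    have hx3 : orderOf (QuotientGroup.mk' N g) = 3 := by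
      refine orderOf_eq_prime ?_ fun e => hne (by rw [e, one_pow])
      rw [← map_pow, ← hg3, pow_orderOf_eq_one, map_one]
    have hgt : orderOf (g * t * g⁻¹) = 2 := by
      rw [← ht]
      exact orderOf_injective (MulAut.conj g).toMonoidHom (MulAut.conj g).injective t
    have hcomm : Commute (QuotientGroup.mk' N g) (QuotientGroup.mk' N t) := by
      have e := hpair _ hgt
      rw [← QuotientGroup.mk'_apply, ← QuotientGroup.mk'_apply, map_mul, map_mul, map_inv] at e
      exact mul_inv_eq_iff_eq_mul.1 e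
    exact (h.quotient N).allPrimePower.not_commute Nat.prime_three Nat.prime_two (by norm_num) hx3 ht2 hcomm
  have hinv : ∀ n ∈ N, t * n * t⁻¹ = n⁻¹ := by
    intro n hn
    have e1 : (QuotientGroup.mk (t * n) : G ⧸ N) = QuotientGroup.mk t :=
      QuotientGroup.mk_mul_of_mem t hn
    have e2 : 2 ∣ orderOf (t * n) := by
      rw [← ht2, ← e1]; exact orderOf_map_dvd (QuotientGroup.mk' N) _
    have e3 : (t * n) ^ 2 ∈ N := by
      rw [← QuotientGroup.eq_one_iff, QuotientGroup.mk_pow, e1, ← ht2, pow_orderOf_eq_one]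
    have e4 : (t * n) ^ 2 = 1 := by
      have a1 := h.pow_three_of_mem hN3 e3
      have a2 := h.pow_four_of_even e2
      calc (t * n) ^ 2 = ((t * n) ^ 2) ^ 3 * (((t * n) ^ 4))⁻¹ := by group
        _ = 1 := by rw [a1, a2]; group
    rw [pow_two] at e4
    have htt : t * t = 1 := by rw [← pow_two, ← ht, pow_orderOf_eq_one]
    rw [inv_eq_of_mul_eq_one_right htt]
    calc t * n * t = (t * n) * (t * n) * n⁻¹ := by group
      _ = n⁻¹ := by rw [e4, one_mul]
  refine ⟨N, hNn, ⟨⟨⟨fun a b => Subtype.ext ?_⟩⟩, fun n hn => h.pow_three_of_mem hN3 hn⟩, htne, hN3, hq4, ?_⟩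
  · show (a : G) * b = b * a
    have e5 := hinv _ (mul_mem (inv_mem a.2) (inv_mem b.2))
    have e6 : t * ((a : G)⁻¹ * (b : G)⁻¹) * t⁻¹ = (t * (a : G)⁻¹ * t⁻¹) * (t * (b : G)⁻¹ * t⁻¹) := by group
    rw [e6, hinv _ (inv_mem a.2), hinv _ (inv_mem b.2)] at e5
    simpa using e5
  · intro x hx
    obtain ⟨g, rfl⟩ := QuotientGroup.mk'_surjective N x
    by_cases hg : orderOf g = 3
    · refine Or.inl ?_
      have e7 : QuotientGroup.mk' N g ^ 3 = 1 := by rw [← map_pow, ← hg, pow_orderOf_eq_one, map_one]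
      calc QuotientGroup.mk' N g = QuotientGroup.mk' N g ^ 3 * (QuotientGroup.mk' N g * QuotientGroup.mk' N g)⁻¹ := by group
        _ = 1 := by rw [e7, hx]; group
    · have e8 := h.pow_four_of_not_three hg
      have e9 : g ^ 2 ∈ N := by
        rw [← QuotientGroup.eq_one_iff, QuotientGroup.mk_pow, pow_two]; exact hx
      have e10 : g ^ 2 = 1 := by
        have a1 := h.pow_three_of_mem hN3 e9
        calc g ^ 2 = (g ^ 2) ^ 3 * (g ^ 4)⁻¹ := by group
          _ = 1 := by rw [a1, e8]; group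
      by_cases hg1 : g = 1
      · exact Or.inl (by rw [hg1, map_one])
      · exact Or.inr (hpair g (orderOf_eq_prime e10 hg1))

/-- Commuting elements of order three generate the same subgroup when there is a normal `2`-subgroup. -/
theorem mem_zpowers_of_commute (h : OrderLeFour G) {V : Subgroup G} [V.Normal] (hV : IsPGroup 2 V)
    (hV1 : V ≠ ⊥) {x y : G} (hx : orderOf x = 3) (hy : y ^ 3 = 1) (hxy : Commute x y) : y ∈ zpowers x := by
  have : Nontrivial V := (nontrivial_iff_ne_bot V).2 hV1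
  set E := closure ({x, y} : Set G)
  have hEc : IsMulCommutative E := isMulCommutative_closure (by
    rintro a (rfl | rfl) b (rfl | rfl) <;> first | rfl | exact hxy.eq | exact hxy.eq.symm)
  have hE3 : ∀ e ∈ E, e ^ 3 = 1 := by
    intro e he
    induction he using closure_induction with
    | mem a ha =>
      rcases ha with rfl | rfl
      · rw [← hx, pow_orderOf_eq_one]
      · exact hy
    | one => simp
    | mul a b ha hb ea eb =>
      have : Commute a b := congrArg Subtype.val (hEc.is_comm.comm ⟨a, ha⟩ ⟨b, hb⟩)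
      rw [this.mul_pow, ea, eb, one_mul]
    | inv a _ ea => rw [inv_pow, ea, inv_one]
  have hfpf : ∀ e : E, e ≠ 1 → ∀ k : V, (MulAut.conjNormal.comp E.subtype) e k = k → k = 1 := by
    intro e he k hk
    by_contra hk1
    obtain ⟨i, hi⟩ := exists_orderOf_eq_pow_of_mem hV k.2
    have hk4 := h.pow_four_of_mem hV k.2
    have heo : orderOf (e : G) = 3 := orderOf_eq_prime (hp := ⟨Nat.prime_three⟩) (hE3 e e.2)
      fun h' => he (Subtype.ext h')
    have hc : Commute (e : G) (k : G) := mul_inv_eq_iff_eq_mul.1 (congrArg Subtype.val hk)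
    by_cases hk2 : (k : G) ^ 2 = 1
    · exact h.allPrimePower.not_commute Nat.prime_three Nat.prime_two (by norm_num) heo
        (orderOf_eq_prime hk2 fun h' => hk1 (Subtype.ext h')) hc
    · exact h.allPrimePower.not_commute Nat.prime_three Nat.prime_two (by norm_num) heo
        (orderOf_eq_prime (by rw [← pow_mul]; exact hk4) hk2) (hc.pow_right 2)
  have hcyc := H21.isCyclic_of_comm_fpf (MulAut.conjNormal.comp E.subtype) hfpf
  have hexp : Monoid.exponent E ∣ 3 :=
    Monoid.exponent_dvd_of_forall_pow_eq_one fun e => Subtype.ext (hE3 e e.2)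
  rw [IsCyclic.exponent_eq_card] at hexp
  have hle : zpowers x ≤ E := zpowers_le.2 (subset_closure (Set.mem_insert _ _))
  rw [eq_of_le_of_card_ge hle (by rw [Nat.card_zpowers, hx]; exact Nat.le_of_dvd (by norm_num) hexp)]
  exact subset_closure (Set.mem_insert_of_mem _ rfl)

/-- A `3`-subgroup has order at most three when there is a normal `2`-subgroup. -/
theorem card_le_three (h : OrderLeFour G) {V : Subgroup G} [V.Normal] (hV : IsPGroup 2 V)
    (hV1 : V ≠ ⊥) {S : Subgroup G} (hS : IsPGroup 3 S) : Nat.card S ≤ 3 := by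
  have := Fact.mk Nat.prime_three
  rcases subsingleton_or_nontrivial S with hs | hnt
  · rw [Nat.card_of_subsingleton (1 : S)]; norm_num
  have hZ := hS.center_nontrivial
  obtain ⟨⟨z, hz⟩, hz1⟩ := exists_ne (1 : center S)
  have hz1' : (z : G) ≠ 1 := fun e => hz1 (Subtype.ext (Subtype.ext e))
  have hzo : orderOf (z : G) = 3 := orderOf_eq_prime (h.pow_three_of_mem hS z.2) hz1'
  have hle : S ≤ zpowers (z : G) := fun y hy => h.mem_zpowers_of_commute hV hV1 hzo
    (h.pow_three_of_mem hS hy) (congrArg Subtype.val (mem_center_iff.1 hz ⟨y, hy⟩)).symm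
  exact (card_le_of_le hle).trans (by rw [Nat.card_zpowers, hzo])

/-- A normal `2`-subgroup with trivial intersection with `⟨x⟩`, `x` of order three: splitting. -/
theorem splitting (h : OrderLeFour G) {O : Subgroup G} [hOn : O.Normal] (hO : IsPGroup 2 O) {x : G}
    (hx : orderOf x = 3) {u : G} (hu : u ∈ O) : u * (x * u * x⁻¹) * (x * (x * u * x⁻¹) * x⁻¹) = 1 := by
  have hx3 : x ^ 3 = 1 := by rw [← hx, pow_orderOf_eq_one]
  have h3 : (u * x) ^ 3 = 1 := by
    refine h.pow_three_of_dvd ?_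
    have hxq : orderOf (QuotientGroup.mk' O x) = 3 := by
      refine orderOf_eq_prime (hp := ⟨Nat.prime_three⟩) (by rw [← map_pow, hx3, map_one]) fun e => ?_
      have e' := h.pow_four_of_mem hO ((QuotientGroup.eq_one_iff x).1 e)
      have : orderOf x ∣ 4 := orderOf_dvd_of_pow_eq_one e'
      rw [hx] at this; norm_num at this
    have e1 : QuotientGroup.mk' O (u * x) = QuotientGroup.mk' O x := by
      rw [map_mul, show QuotientGroup.mk' O u = 1 from (QuotientGroup.eq_one_iff u).2 hu, one_mul]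
    rw [← hxq, ← e1]; exact orderOf_map_dvd _ _
  calc u * (x * u * x⁻¹) * (x * (x * u * x⁻¹) * x⁻¹) = (u * x) ^ 3 * (x ^ 3)⁻¹ := by
        simp only [pow_succ, pow_zero, one_mul]; group
    _ = 1 := by rw [h3, hx3]; group

/-- With an element of order three, a normal `2`-subgroup has class at most two. -/
theorem class_le_two (h : OrderLeFour G) {O : Subgroup G} [hOn : O.Normal] (hO : IsPGroup 2 O) {x : G}
    (hx : orderOf x = 3) : Group.nilpotencyClass O ≤ 2 := by
  have := hO.isNilpotent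
  let σ : O ≃* O := MulAut.conjNormal x
  have hσ : ∀ u : O, ((σ u : O) : G) = x * u * x⁻¹ := fun u => MulAut.conjNormal_apply x u
  have hx3 : x ^ 3 = 1 := by rw [← hx, pow_orderOf_eq_one]
  refine nilpotencyClass_le_two_of_commutesConjugates (commutesConjugates_of_splitting σ ?_ ?_ ?_) ?_
  · intro u hu
    have e0 := h.splitting hO hx u.2
    have e1 : x * (u : G) * x⁻¹ = u := by rw [← hσ]; exact congrArg Subtype.val hu
    rw [e1, e1] at e0
    have e2 := h.pow_four_of_mem hO u.2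
    refine Subtype.ext ?_
    calc (u : G) = (u : G) ^ 4 * ((u : G) * u * u)⁻¹ := by group
      _ = 1 := by rw [e2, e0]; group
  · intro u
    refine Subtype.ext ?_
    rw [coe_mul, coe_mul, hσ, hσ]
    exact h.splitting hO hx u.2
  · intro u
    refine Subtype.ext ?_
    rw [coe_mul, coe_mul, hσ, hσ]
    have e0 := h.splitting (x := x⁻¹) hO (by rw [orderOf_inv, hx]) u.2
    have ex : x⁻¹ * x⁻¹ = x := by
      calc x⁻¹ * x⁻¹ = (x ^ 3)⁻¹ * x := by group
        _ = x := by rw [hx3]; group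
    have ex' : x * x = x⁻¹ := by rw [← inv_inj, mul_inv_rev, inv_inv, ex]
    have f1 : x⁻¹ * (x⁻¹ * (u : G) * x⁻¹⁻¹) * x⁻¹⁻¹ = x * u * x⁻¹ := by
      calc _ = (x⁻¹ * x⁻¹) * (u : G) * (x⁻¹ * x⁻¹)⁻¹ := by simp [mul_assoc]
        _ = _ := by rw [ex]
    have f2 : x⁻¹ * (u : G) * x⁻¹⁻¹ = x * (x * u * x⁻¹) * x⁻¹ := by
      calc _ = (x * x) * (u : G) * (x * x)⁻¹ := by rw [ex']
        _ = _ := by simp [mul_assoc]
    rw [f1, f2, mul_assoc] at e0
    rw [eq_inv_of_mul_eq_one_right e0, OneMemClass.coe_one, inv_mul_cancel]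
  · intro u hu
    have e2 := h.pow_four_of_mem hO u.2
    have e3 : (u : G) ^ 3 = 1 := by rw [← coe_pow, hu, coe_one]
    refine Subtype.ext ?_
    calc (u : G) = (u : G) ^ 4 * ((u : G) ^ 3)⁻¹ := by group
      _ = 1 := by rw [e2, e3]; group

end OrderLeFour


section TwoCase

universe u

/-- The symmetric-group case: the normal `2`-subgroup is elementary abelian. -/
theorem two_mul_self_aux (n : ℕ) : ∀ (G : Type u) [Group G] [Finite G], Nat.card G = n → OrderLeFour G →
    ∀ (O : Subgroup G), O.Normal → IsPGroup 2 O → ∀ x t : G, orderOf x = 3 → t * t = 1 →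
    t * x * t⁻¹ = x⁻¹ → t ∉ O → ∀ u ∈ O, u * u = 1 := by
  induction n using Nat.strong_induction_on with
  | _ n ih =>
  intro G _ _ hn h O hOn hO x t hx htt htx htO
  by_cases hO1 : O = ⊥
  · intro u hu; rw [hO1, mem_bot] at hu; rw [hu, one_mul]
  have := Fact.mk Nat.prime_two
  let W : Subgroup G :=
    { carrier := {z | z ∈ O ∧ z * z = 1 ∧ ∀ o ∈ O, o * z = z * o}
      one_mem' := ⟨one_mem _, one_mul _, fun o _ => by simp⟩
      mul_mem' := fun {a b} ⟨ha, ha2, hac⟩ ⟨hb, hb2, hbc⟩ => ⟨mul_mem ha hb, by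
          calc a * b * (a * b) = a * (b * a) * b := by group
            _ = (a * a) * (b * b) := by rw [hac b hb]; group
            _ = 1 := by rw [ha2, hb2, one_mul],
        fun o ho => by rw [← mul_assoc, hac o ho, mul_assoc, hbc o ho, mul_assoc]⟩
      inv_mem' := fun {a} ⟨ha, ha2, hac⟩ => by
        rw [inv_eq_of_mul_eq_one_right ha2]; exact ⟨ha, ha2, hac⟩ }
  have hWn : W.Normal := ⟨fun z ⟨hz, hz2, hzc⟩ g => ⟨hOn.conj_mem z hz g, by
      calc g * z * g⁻¹ * (g * z * g⁻¹) = g * (z * z) * g⁻¹ := by group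
        _ = 1 := by rw [hz2]; group,
    fun o ho => by
      have e := hzc (g⁻¹ * o * g) (by simpa using hOn.conj_mem o ho g⁻¹)
      calc o * (g * z * g⁻¹) = g * ((g⁻¹ * o * g) * z) * g⁻¹ := by group
        _ = g * (z * (g⁻¹ * o * g)) * g⁻¹ := by rw [e]
        _ = _ := by group⟩⟩
  have hWO : W ≤ O := fun z hz => hz.1
  have hW2 : IsPGroup 2 W := hO.to_le hWO
  have hW1 : W ≠ ⊥ := by
    have := (nontrivial_iff_ne_bot O).2 hO1
    have hZ := hO.center_nontrivial
    obtain ⟨⟨z, hz⟩, hz1⟩ := exists_ne (1 : center O)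
    have hz1' : (z : G) ≠ 1 := fun e => hz1 (Subtype.ext (Subtype.ext e))
    have hz4 := h.pow_four_of_mem hO z.2
    have hzc : ∀ o ∈ O, o * (z : G) = z * o := fun o ho => congrArg Subtype.val (mem_center_iff.1 hz ⟨o, ho⟩)
    intro hb
    have hmem : ∀ y ∈ W, y = 1 := fun y hy => mem_bot.1 (hb ▸ hy)
    have e : (z : G) * z = 1 := hmem _ ⟨mul_mem z.2 z.2, by
      rw [← hz4]; simp only [pow_succ, pow_zero, one_mul, mul_assoc],
      fun o ho => by rw [← mul_assoc, hzc o ho, mul_assoc, hzc o ho, mul_assoc]⟩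
    exact hz1' (hmem _ ⟨z.2, e, hzc⟩)
  -- induction: squares lie in `W`
  have hxW : orderOf (QuotientGroup.mk' W x) = 3 := by
    refine orderOf_eq_prime (hp := ⟨Nat.prime_three⟩)
      (by rw [← map_pow, ← hx, pow_orderOf_eq_one, map_one]) fun e => ?_
    have : orderOf x ∣ 4 := orderOf_dvd_of_pow_eq_one (h.pow_four_of_mem hW2 ((QuotientGroup.eq_one_iff x).1 e))
    rw [hx] at this; norm_num at this
  have hlt : Nat.card (G ⧸ W) < n := by
    have h7 := W.card_mul_index
    rw [← index_eq_card]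
    have h5 : 1 < Nat.card W := W.one_lt_card_iff_ne_bot.2 hW1
    have h8 : 0 < W.index := Nat.pos_of_ne_zero W.index_ne_zero_of_finite
    have h9 : 2 * W.index ≤ Nat.card W * W.index := Nat.mul_le_mul_right _ h5
    omega
  have hquot := ih _ hlt (G ⧸ W) rfl (h.quotient W) (O.map (QuotientGroup.mk' W))
    (hOn.map _ (QuotientGroup.mk'_surjective W)) (hO.map _) (QuotientGroup.mk' W x) (QuotientGroup.mk' W t)
    hxW (by rw [← map_mul, htt, map_one]) (by rw [← map_mul, ← map_inv, ← map_mul, htx, map_inv])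
    (fun ⟨o, ho, hot⟩ => htO (by
      have e : o⁻¹ * t ∈ W := QuotientGroup.eq.1 hot
      simpa using mul_mem ho (hWO e)))
  have hsq : ∀ u ∈ O, u * u ∈ W := fun u hu => by
    rw [← QuotientGroup.eq_one_iff]
    exact hquot _ (mem_map_of_mem (QuotientGroup.mk' W) hu)
  have hmodc : ∀ {u v : G}, u ∈ O → v ∈ O → ⁅u, v⁆ ∈ W := by
    intro u v hu hv
    rw [← QuotientGroup.eq_one_iff]
    have e1 := hquot _ (mem_map_of_mem (QuotientGroup.mk' W) hu)
    have e2 := hquot _ (mem_map_of_mem (QuotientGroup.mk' W) hv)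
    have e3 := hquot _ (mem_map_of_mem (QuotientGroup.mk' W) (mul_mem hu hv))
    show QuotientGroup.mk' W ⁅u, v⁆ = 1
    rw [map_mul] at e3
    rw [commutatorElement_def, map_mul, map_mul, map_mul, map_inv, map_inv,
      inv_eq_of_mul_eq_one_right e1, inv_eq_of_mul_eq_one_right e2, mul_assoc]
    exact e3
  set σ := MulAut.conj x
  set τ := MulAut.conj t
  have hσO : ∀ {u : G}, u ∈ O → σ u ∈ O := fun hu => hOn.conj_mem _ hu x
  have hτO : ∀ {u : G}, u ∈ O → τ u ∈ O := fun hu => hOn.conj_mem _ hu t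
  have hx3 : x ^ 3 = 1 := by rw [← hx, pow_orderOf_eq_one]
  have hspl : ∀ {u : G}, u ∈ O → u * σ u * σ (σ u) = 1 := fun hu => h.splitting hO hx hu
  have hσσ : ∀ {u : G}, u ∈ O → σ (σ u) = (u * σ u)⁻¹ := fun hu => (inv_eq_of_mul_eq_one_right (hspl hu)).symm
  have hπ : ∀ {u v : G}, u ∈ O → v ∈ O → QuotientGroup.mk' W u * QuotientGroup.mk' W v =
      QuotientGroup.mk' W v * QuotientGroup.mk' W u := by
    intro u v hu hv
    apply commutatorElement_eq_one_iff_mul_comm.1
    rw [← map_commutatorElement]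
    exact (QuotientGroup.eq_one_iff _).2 (hmodc hu hv)
  have hinvo : ∀ {u : G}, u ∈ O → (QuotientGroup.mk' W u)⁻¹ = QuotientGroup.mk' W u := fun hu =>
    inv_eq_of_mul_eq_one_right (hquot _ (mem_map_of_mem (QuotientGroup.mk' W) hu))
  have hW' : ∀ {u v : G}, QuotientGroup.mk' W u = QuotientGroup.mk' W v → ∃ w ∈ W, u * w = v :=
    fun e => ⟨_, QuotientGroup.eq.1 e, mul_inv_cancel_left _ _⟩
  have hττ : ∀ u : G, τ (τ u) = u := fun u => by
    rw [MulAut.conj_apply, MulAut.conj_apply, inv_eq_of_mul_eq_one_right htt]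
    calc t * (t * u * t) * t = (t * t) * u * (t * t) := by group
      _ = u := by rw [htt]; group
  have hτσ : ∀ u : G, τ (σ u) = σ (σ (τ u)) := fun u => by
    have ex : x⁻¹ = x * x := by
      calc x⁻¹ = x⁻¹ * x ^ 3 := by rw [hx3, mul_one]
        _ = x * x := by simp [pow_succ, mul_assoc]
    simp only [σ, τ, MulAut.conj_apply]
    calc t * (x * u * x⁻¹) * t⁻¹ = (t * x * t⁻¹) * (t * u * t⁻¹) * (t * x * t⁻¹)⁻¹ := by group
      _ = x⁻¹ * (t * u * t⁻¹) * x⁻¹⁻¹ := by rw [htx]
      _ = x * x * (t * u * t⁻¹) * (x * x)⁻¹ := by rw [ex]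
      _ = _ := by group
  -- the elements fixed by `t` modulo `W`
  set I := fun c : G => c ∈ O ∧ QuotientGroup.mk' W (τ c) = QuotientGroup.mk' W c with hI
  have hImul : ∀ {c d : G}, I c → I d → I (c * d) := fun hc hd =>
    ⟨mul_mem hc.1 hd.1, by rw [map_mul, map_mul, map_mul, hc.2, hd.2]⟩
  have hIsq : ∀ {c : G}, I c → c * c = 1 := by
    intro c hc
    obtain ⟨hcO, hcf⟩ := hc
    have hu : σ c ∈ O := hσO hcO
    have e1 : QuotientGroup.mk' W (τ (σ c) * σ c) = QuotientGroup.mk' W c := by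
      rw [hτσ, hσσ (hτO hcO), map_mul, map_inv, map_mul]
      obtain ⟨w, hw, hwe⟩ := hW' hcf.symm
      have e2 : QuotientGroup.mk' W (σ (τ c)) = QuotientGroup.mk' W (σ c) := by
        rw [← hwe, map_mul, map_mul,
          show QuotientGroup.mk' W (σ w) = 1 from (QuotientGroup.eq_one_iff _).2 (hWn.conj_mem w hw x), mul_one]
      rw [hcf, e2, ← hπ hu hcO, mul_inv_rev, hinvo hu, hinvo hcO, mul_assoc, hquot _ (mem_map_of_mem (QuotientGroup.mk' W) hu), mul_one]
    obtain ⟨w, ⟨hw, hw2, hwc⟩, hwe⟩ := hW' e1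
    set a := τ (σ c) * σ c with ha
    have haO : a ∈ O := mul_mem (hτO hu) hu
    have e3 : a = (t * σ c) ^ 2 := by
      rw [ha, pow_two, MulAut.conj_apply t, inv_eq_of_mul_eq_one_right htt]; simp [mul_assoc]
    have e4 : (t * σ c) ^ 4 = 1 := by
      refine h.pow_four_of_even ?_
      have e5 : QuotientGroup.mk' O (t * σ c) = QuotientGroup.mk' O t := QuotientGroup.mk_mul_of_mem t hu
      have e6 : orderOf (QuotientGroup.mk' O t) = 2 :=
        orderOf_eq_prime (by rw [← map_pow, pow_two, htt, map_one]) fun e => htO ((QuotientGroup.eq_one_iff t).1 e)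
      rw [← e6, ← e5]; exact orderOf_map_dvd _ _
    have e7 : a * a = 1 := by rw [e3, ← pow_add, e4]
    rw [← hwe]
    calc a * w * (a * w) = a * (w * a) * w := by group
      _ = (a * a) * (w * w) := by rw [← hwc a haO]; group
      _ = 1 := by rw [e7, hw2, one_mul]
  have hIcomm : ∀ {c d : G}, I c → I d → c * d = d * c := by
    intro c d hc hd
    have e := hIsq (hImul hc hd)
    rw [← inv_eq_of_mul_eq_one_right e, mul_inv_rev, inv_eq_of_mul_eq_one_right (hIsq hc),
      inv_eq_of_mul_eq_one_right (hIsq hd)]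
  have hself : ∀ {c : G}, I c → σ c * c = c * σ c := by
    intro c hc
    have hcO := hc.1
    have hc2 := hIsq hc
    have e1 : σ (σ c) * σ (σ c) = 1 := by rw [← map_mul, ← map_mul, hc2, map_one, map_one]
    have e2 : σ c * σ c = 1 := by rw [← map_mul, hc2, map_one]
    rw [hσσ hcO, ← mul_inv_rev, inv_eq_one] at e1
    rw [← inv_eq_of_mul_eq_one_right e1, mul_inv_rev, inv_eq_of_mul_eq_one_right hc2,
      inv_eq_of_mul_eq_one_right e2]
  have hcross : ∀ {c d : G}, I c → I d → c * σ d = σ d * c := by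
    intro c d hc hd
    obtain ⟨hcO, -⟩ := id hc
    obtain ⟨hdO, -⟩ := id hd
    set e := ⁅c, σ d⁆ with he
    have heW : e ∈ W := hmodc hcO (hσO hdO)
    have e'W : ⁅d, σ c⁆ ∈ W := hmodc hdO (hσO hcO)
    have hcen : ∀ {w o : G}, w ∈ W → o ∈ O → Commute o w := fun hw ho => hw.2.2 _ ho
    -- `e` is symmetric in `c` and `d`
    have e1 : c * σ d = e * (σ d * c) := by rw [he, commutatorElement_def]; group
    have e2 : d * σ c = ⁅d, σ c⁆ * (σ c * d) := by rw [commutatorElement_def]; group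
    have e3 : σ (c * d) * (c * d) = c * d * σ (c * d) := hself (hImul hc hd)
    have hσcd : σ c * σ d = σ d * σ c := by rw [← map_mul, ← map_mul, hIcomm hc hd]
    have e4 : c * d * σ (c * d) = e * ⁅d, σ c⁆ * (σ (c * d) * (c * d)) := by
      rw [map_mul]
      calc c * d * (σ c * σ d) = c * (d * σ c) * σ d := by group
        _ = c * ⁅d, σ c⁆ * (σ c * (d * σ d)) := by rw [e2]; group
        _ = ⁅d, σ c⁆ * c * (σ c * (σ d * d)) := by
            rw [(hcen e'W hcO).eq, hself hd]
        _ = ⁅d, σ c⁆ * ((c * σ c) * σ d) * d := by group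
        _ = ⁅d, σ c⁆ * (σ c * (c * σ d)) * d := by rw [← hself hc]; group
        _ = ⁅d, σ c⁆ * ((σ c * e) * σ d * c) * d := by rw [e1]; group
        _ = ⁅d, σ c⁆ * e * (σ c * σ d * (c * d)) := by rw [(hcen heW (hσO hcO)).eq]; group
        _ = _ := by rw [(hcen e'W (hWO heW)).eq]
    rw [e3] at e4
    have e5 : ⁅d, σ c⁆ = e := by
      have := mul_eq_right.1 e4.symm
      rw [← inv_eq_of_mul_eq_one_right heW.2.1]; exact eq_inv_of_mul_eq_one_right this
    -- `e` is fixed by `x`
    have e6 : σ e = e := by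
      calc σ e = ⁅σ c, σ (σ d)⁆ := by rw [he, map_commutatorElement]
        _ = ⁅σ c, (σ d)⁻¹ * d⁻¹⁆ := by rw [hσσ hdO, mul_inv_rev]
        _ = (σ c * (σ d)⁻¹ * (σ c)⁻¹) * (σ c * d⁻¹ * (σ c)⁻¹ * d) * σ d := by
            rw [commutatorElement_def]; group
        _ = (σ d)⁻¹ * (σ c * d⁻¹ * (σ c)⁻¹ * d) * σ d := by
            rw [show σ c * (σ d)⁻¹ * (σ c)⁻¹ = (σ d)⁻¹ by
              rw [← map_inv, ← map_inv, ← map_mul, ← map_mul]
              congr 1
              rw [inv_eq_of_mul_eq_one_right (hIsq hd), inv_eq_of_mul_eq_one_right (hIsq hc), hIcomm hc hd,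
                mul_assoc, hIsq hc, mul_one]]
        _ = (σ d)⁻¹ * (d⁻¹ * ⁅d, σ c⁆ * d) * σ d := by rw [commutatorElement_def]; group
        _ = (σ d)⁻¹ * (d⁻¹ * (e * d)) * σ d := by rw [e5]; group
        _ = (σ d)⁻¹ * (e * σ d) := by rw [← (hcen heW hdO).eq]; group
        _ = e := by rw [← (hcen heW (hσO hdO)).eq]; group
    have e7 : e = 1 := by
      have e8 := hspl (hWO heW)
      rw [e6, e6, heW.2.1, one_mul] at e8
      exact e8
    exact commutatorElement_eq_one_iff_mul_comm.1 e7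
  -- decomposition
  intro v hv
  have hjI : I (v * τ v) := by
    refine ⟨mul_mem hv (hτO hv), ?_⟩
    rw [map_mul τ, hττ, map_mul, map_mul]
    exact hπ (hτO hv) hv
  have hjO : v * τ v ∈ O := hjI.1
  have hiI : I (v * (σ (v * τ v))⁻¹) := by
    refine ⟨mul_mem hv (inv_mem (hσO hjO)), ?_⟩
    obtain ⟨w, hw, hwe⟩ := hW' hjI.2
    have e1 : QuotientGroup.mk' W (τ (σ (v * τ v))) =
        (QuotientGroup.mk' W (v * τ v) * QuotientGroup.mk' W (σ (v * τ v)))⁻¹ := by
      rw [hτσ, ← map_mul, ← map_inv, ← hσσ hjO]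
      conv_rhs => rw [← hwe]
      rw [map_mul σ, map_mul σ, map_mul (QuotientGroup.mk' W) _ (σ (σ w)),
        show QuotientGroup.mk' W (σ (σ w)) = 1 from
          (QuotientGroup.eq_one_iff _).2 (hWn.conj_mem _ (hWn.conj_mem w hw x) x), mul_one]
    generalize hj : σ (v * τ v) = sj at e1 ⊢
    have hsjO : sj ∈ O := hj ▸ hσO hjO
    rw [map_mul τ, map_inv τ, map_mul, map_inv, e1, inv_inv, map_mul, map_mul, map_inv,
      hinvo hsjO, ← mul_assoc, ← mul_assoc, hπ (hτO hv) hv, mul_assoc (QuotientGroup.mk' W v),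
      hquot _ (mem_map_of_mem (QuotientGroup.mk' W) (hτO hv)), mul_one]
  have ea := hIsq hiI
  have eb : σ (v * τ v) * σ (v * τ v) = 1 := by rw [← map_mul, hIsq hjI, map_one]
  have ec := hcross hiI hjI
  calc v * v = (v * (σ (v * τ v))⁻¹) * σ (v * τ v) * ((v * (σ (v * τ v))⁻¹) * σ (v * τ v)) := by group
    _ = (v * (σ (v * τ v))⁻¹) * (σ (v * τ v) * (v * (σ (v * τ v))⁻¹)) * σ (v * τ v) := by group
    _ = ((v * (σ (v * τ v))⁻¹) * (v * (σ (v * τ v))⁻¹)) * (σ (v * τ v) * σ (v * τ v)) := by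
        rw [← ec]; group
    _ = 1 := by rw [ea, eb, one_mul]

namespace OrderLeFour

variable {G : Type u} [Group G] [Finite G]

/-- The structure when there is a nontrivial normal `2`-subgroup and an element of order three. -/
theorem two_case (h : OrderLeFour G) {V : Subgroup G} [hVn : V.Normal] (hV : IsPGroup 2 V)
    (hV1 : V ≠ ⊥) {x : G} (hx : orderOf x = 3) :
    ∃ O : Subgroup G, O.Normal ∧ IsPGroup 2 O ∧ (O.index = 3 ∨
      (O.index = 6 ∧ (∀ u ∈ O, u * u = 1) ∧ ∃ t : G, t * t = 1 ∧ t * x * t⁻¹ = x⁻¹ ∧ t ∉ O)) := by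
  have := Fact.mk Nat.prime_two
  have := Fact.mk Nat.prime_three
  have := h.isSolvable
  have hOn : (Cfsg.pCore 2 G).Normal := H19.pCore_normal 2 G
  set O := Cfsg.pCore 2 G with hOdef
  have hO : IsPGroup 2 O := H19.pCore_isPGroup (G := G) 2
  have hxO : x ∉ O := fun hm => by
    have : orderOf x ∣ 4 := orderOf_dvd_of_pow_eq_one (h.pow_four_of_mem hO hm)
    rw [hx] at this; norm_num at this
  have hnt : (⊤ : Subgroup (G ⧸ O)) ≠ ⊥ := fun e => hxO ((QuotientGroup.eq_one_iff x).1
    (mem_bot.1 (e ▸ mem_top (QuotientGroup.mk x : G ⧸ O))))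
  obtain ⟨W, q, hWn, -, hW1, hWc, hq, hWq, hWe⟩ :=
    H19.exists_normal_elementary_le (⊤ : Subgroup (G ⧸ O)) inferInstance hnt
  have hq3 : q = 3 := by
    have := Fact.mk hq
    obtain ⟨w, hw, hwo⟩ := AllPrimePowerOrder.exists_orderOf_eq hWq hW1
    rcases (h.quotient O).prime_eq hq (hwo ▸ orderOf_dvd_natCard w) with rfl | e
    · exact absurd (le_bot_iff.1 ((H19.le_pCore hWn hWq).trans (H19.pCore_quotient_pCore 2).le)) hW1
    · exact e
  subst hq3
  have hsmall : ∀ S : Subgroup (G ⧸ O), IsPGroup 3 S → Nat.card S ≤ 3 := by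
    intro S hS
    obtain ⟨i, hi⟩ := hS.exists_card_eq
    obtain ⟨R, hR⟩ := Sylow.exists_subgroup_card_pow_prime 3 (n := i) (G := G)
      ((hi ▸ card_subgroup_dvd_card S).trans (card_quotient_dvd_card O))
    rw [hi, ← hR]
    exact h.card_le_three hV hV1 (IsPGroup.of_card hR)
  have hW3 : Nat.card W = 3 := by
    obtain ⟨i, hi⟩ := hWq.exists_card_eq
    have h1 := hsmall W hWq
    have h2 : 1 < Nat.card W := W.one_lt_card_iff_ne_bot.2 hW1
    rw [hi] at h1 h2 ⊢
    rcases i with - | - | i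
    · simp at h2
    · norm_num
    · exfalso
      have : 3 ^ 2 ≤ 3 ^ (i + 1 + 1) := Nat.pow_le_pow_right (by norm_num) (by omega)
      omega
  have hall : ∀ y : G ⧸ O, y ^ 3 = 1 → y ∈ W := by
    intro y hy
    have hy3 : IsPGroup 3 (zpowers y) := by
      rintro ⟨w, hw⟩
      obtain ⟨k, rfl⟩ := mem_zpowers_iff.1 hw
      refine ⟨1, Subtype.ext ?_⟩
      show (y ^ k) ^ (3 ^ 1) = 1
      rw [pow_one, ← zpow_natCast, ← zpow_mul, mul_comm, zpow_mul, zpow_natCast, hy, one_zpow]
    have h1 := hsmall _ (hWq.to_sup_of_normal_left' hy3 le_normalizer_of_normal)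
    rw [← hW3] at h1
    rw [eq_of_le_of_card_ge le_sup_left h1]
    exact le_sup_right (a := W) (mem_zpowers y)
  set x' : G ⧸ O := QuotientGroup.mk x with hx'
  have hx3 : x' ^ 3 = 1 := by rw [hx', ← QuotientGroup.mk_pow, ← hx, pow_orderOf_eq_one]; rfl
  have hx1 : x' ≠ 1 := fun e => hxO ((QuotientGroup.eq_one_iff x).1 e)
  have hxo : orderOf x' = 3 := orderOf_eq_prime hx3 hx1
  have hWx : W = zpowers x' := (eq_of_le_of_card_ge (zpowers_le.2 (hall _ hx3))
    (by rw [hW3, Nat.card_zpowers, hxo])).symm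
  have hconj : ∀ a : G ⧸ O, a ∉ W → a * x' * a⁻¹ = x'⁻¹ := by
    intro a ha
    have hC : IsPGroup 3 (centralizer ({x'} : Set (G ⧸ O))) :=
      (h.quotient O).allPrimePower.isPGroup_centralizer hxo _ fun c hc => mem_centralizer_singleton_iff.1 hc
    have hCW : centralizer ({x'} : Set (G ⧸ O)) ≤ W := fun c hc => hall c ((h.quotient O).pow_three_of_mem hC hc)
    have hm : a * x' * a⁻¹ ∈ zpowers x' := hWx ▸ hWn.conj_mem x' (hall _ hx3) a
    obtain ⟨k, hk⟩ := mem_zpowers_iff.1 hm
    rw [← zpow_mod_orderOf, hxo] at hk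
    have hk3 : k % (3 : ℕ) = 0 ∨ k % (3 : ℕ) = 1 ∨ k % (3 : ℕ) = 2 := by omega
    rcases hk3 with e | e | e <;> rw [e] at hk
    · rw [zpow_zero] at hk
      exact absurd (by simpa using hk.symm) hx1
    · rw [zpow_one] at hk
      exact absurd (hCW (mem_centralizer_singleton_iff.2 (mul_inv_eq_iff_eq_mul.1 hk.symm))) ha
    · rw [← hk]
      calc x' ^ (2 : ℤ) = x' ^ 3 * x'⁻¹ := by group
        _ = x'⁻¹ := by rw [hx3, one_mul]
  refine ⟨O, hOn, hO, ?_⟩
  by_cases htop : W = ⊤
  · left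
    rw [index_eq_card, ← Subgroup.card_top (G := G ⧸ O), ← htop, hW3]
  right
  obtain ⟨a, ha⟩ : ∃ a, a ∉ W := by
    by_contra hc; push Not at hc; exact htop ((eq_top_iff' _).2 hc)
  have hWi : W.index = 2 := by
    refine index_eq_two_iff.2 ⟨a, fun b => ?_⟩
    by_cases hb : b ∈ W
    · exact Or.inr ⟨hb, fun hc => ha ((mul_mem_cancel_left hb).1 hc)⟩
    · refine Or.inl ⟨?_, hb⟩
      by_contra hba
      have e1 := hconj _ hba
      have e2 : x'⁻¹ = x' := by
        calc x'⁻¹ = b * a * x' * (b * a)⁻¹ := e1.symm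
          _ = b * (a * x' * a⁻¹) * b⁻¹ := by group
          _ = (b * x' * b⁻¹)⁻¹ := by rw [hconj a ha]; group
          _ = x' := by rw [hconj b hb, inv_inv]
      apply hx1
      calc x' = x' ^ 3 * (x' * x')⁻¹ := by group
        _ = 1 := by rw [hx3]; nth_rewrite 1 [← e2]; group
  have hindex : O.index = 6 := by
    rw [index_eq_card, ← W.card_mul_index, hW3, hWi]
  -- Frattini gives an involution inverting `x`
  set K := W.comap (QuotientGroup.mk' O) with hK
  have hKn : K.Normal := hWn.comap _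
  have hxK : zpowers x ≤ K := zpowers_le.2 (hall _ hx3)
  have hK3 : ¬ 3 ∣ ((zpowers x).subgroupOf K).index := by
    intro hd
    have h1 : Nat.card (zpowers x) * ((zpowers x).subgroupOf K).index * K.index = Nat.card G := by
      rw [← Nat.card_congr (subgroupOfEquivOfLe hxK).toEquiv, card_mul_index, card_mul_index]
    obtain ⟨R, hR⟩ := Sylow.exists_subgroup_card_pow_prime 3 (n := 2) (G := G) (by
      rw [← h1, Nat.card_zpowers, hx, pow_two]; exact (mul_dvd_mul_left 3 hd).trans (dvd_mul_right _ _))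
    have := h.card_le_three hV hV1 (IsPGroup.of_card (n := 2) hR)
    omega
  have hS3 : IsPGroup 3 ((zpowers x).subgroupOf K) :=
    (IsPGroup.of_card (n := 1) (by rw [Nat.card_zpowers, hx, pow_one])).comap_subtype
  let S : Sylow 3 K := hS3.toSylow hK3
  have hfr := Sylow.normalizer_sup_eq_top S
  rw [show (S : Subgroup K).map K.subtype = zpowers x by
    rw [show (S : Subgroup K) = (zpowers x).subgroupOf K from IsPGroup.toSylow_coe hS3 hK3,
      map_subgroupOf_eq_of_le hxK]] at hfr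
  obtain ⟨g, hg, hgK⟩ : ∃ g ∈ normalizer (zpowers x : Set G), g ∉ K := by
    by_contra hc
    push Not at hc
    have : K = ⊤ := top_le_iff.1 (hfr ▸ sup_le hc le_rfl)
    exact htop (by
      rw [← map_comap_eq_self_of_surjective (QuotientGroup.mk'_surjective O) W, ← hK, this,
        map_top_of_surjective _ (QuotientGroup.mk'_surjective O)])
  have hgW : (QuotientGroup.mk g : G ⧸ O) ∉ W := hgK
  have hgx : g * x * g⁻¹ = x⁻¹ := by
    have hm : g * x * g⁻¹ ∈ zpowers x := (mem_normalizer_iff.1 hg x).1 (mem_zpowers x)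
    obtain ⟨k, hk⟩ := mem_zpowers_iff.1 hm
    have e1 : x' ^ k = x'⁻¹ := by
      rw [← hconj _ hgW, hx', ← QuotientGroup.mk_zpow, hk]; rfl
    rw [← hk, ← zpow_neg_one x]
    refine zpow_eq_zpow_iff_modEq.2 ?_
    rw [hx, ← hxo]
    exact zpow_eq_zpow_iff_modEq.1 (by rw [e1, zpow_neg_one])
  have hgg : Commute (g ^ 2) x := by
    refine mul_inv_eq_iff_eq_mul.1 ?_
    calc g ^ 2 * x * (g ^ 2)⁻¹ = g * (g * x * g⁻¹) * g⁻¹ := by simp [pow_two, mul_assoc]
      _ = g * x⁻¹ * g⁻¹ := by rw [hgx]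
      _ = (g * x * g⁻¹)⁻¹ := by group
      _ = x := by rw [hgx, inv_inv]
  have hg4 : g ^ 4 = 1 := h.pow_four_of_not_three fun e =>
    hgW (hall _ (by rw [← QuotientGroup.mk_pow, ← e, pow_orderOf_eq_one]; rfl))
  have hgg2 : g * g = 1 := by
    rw [← pow_two]
    by_contra hne
    exact h.allPrimePower.not_commute Nat.prime_two Nat.prime_three (by norm_num)
      (orderOf_eq_prime (by rw [← pow_mul]; exact hg4) hne) hx hgg
  have hgO : g ∉ O := fun hm => hgW (by rw [(QuotientGroup.eq_one_iff g).2 hm]; exact one_mem W)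
  exact ⟨hindex, two_mul_self_aux _ G rfl h O hOn hO x g hx hgg2 hgx hgO, g, hgg2, hgx, hgO⟩

end OrderLeFour

end TwoCase

end Cfsg.Agent.H86
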